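import Cfsg.Agent.H8.LFT.Check

/-!
# Certificates on the stabiliser of the seed of the long orbit
-/

set_option autoImplicit false
set_option maxRecDepth 20000

namespace Cfsg.Agent.H84.SixCover

open Cfsg.Agent.H8.U62 Cfsg.Agent.H8.LFT

/-- The seed. -/
def vC : ℕ := 1366

/-- A vector not orthogonal to the seed. -/
def wC : ℕ := 1

/-- A basis modulo the line. -/
def bC : List ℕ := [13, 49, 193, 769]

/-- The sums of the sublists. -/
def spanC : List ℕ → List ℕ
  | [] => [0]
  | a :: l => forceL (spanC l) fun s => s ++ s.map (Nat.xor a)

/-- The span. -/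
def uC : List ℕ := spanC (vC :: sW vC :: bC)

/-- A basis modulo the seed. -/
def bB : List ℕ := sW vC :: bC

/-- The first index of a functional. -/
def pivC (c : ℕ) : ℕ := ((List.range 5).find? fun j => c.testBit j).getD 0

/-- The hyperplane of a functional. -/
def ySub (c : ℕ) : List ℕ :=
  spanC (vC :: ((List.range 5).filter fun j => !(Nat.beq j (pivC c))).map fun j =>
    bif c.testBit j then Nat.xor (bB.getD j 0) (bB.getD (pivC c) 0) else bB.getD j 0)

/-- The four elements moving the vector `wC` to a basis. -/
def fourC : List ℕ := oneC :: [1, 2, 4, 5].map fun i => e16.getD i 0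

/-- The transvection at the seed. -/
def tvC : ℕ := atomC vC

/-- The basis from the four elements. -/
def fullC : List ℕ :=
  [vC, sW vC, wC, sW wC] ++ (([1, 2, 4, 5].map fun i => Nat.xor (mvC (e16.getD i 0) wC) wC).flatMap fun u => [u, sW u])

/-- The coefficients of the coordinate vectors. -/
def coefC : List ℕ := [4, 8, 3899, 1309, 57, 30, 3081, 1038, 201, 78, 971, 333]

/-- The sum of a sublist. -/
def combC : List ℕ → ℕ → ℕ
  | [], _ => 0
  | a :: l, m => Nat.xor (bif m.testBit 0 then a else 0) (combC l (m >>> 1))

/-- Equal values of the form. -/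
def hEqC (a b c d : ℕ) : Bool :=
  (par (hLo a b) == par (hLo c d)) && (par (hHi a b) == par (hHi c d))

/-- The vectors moved along the line by the sixteen elements form the span. -/
def fixOK : Bool :=
  forceL uC fun U => (List.range 4096).all fun y =>
    !(e16.all fun e => force (Nat.xor (mvC e y) y) fun d => Nat.beq d 0 || Nat.beq d vC) || U.any (Nat.beq y)

/-- The span meets its multiple in the line. -/
def lineOK : Bool :=
  forceL uC fun U => Nat.beq U.length 64 && U.all fun y =>
    !(U.any (Nat.beq (sW y))) || Nat.beq y 0 || Nat.beq y vC || Nat.beq y (sW vC) || Nat.beq y (Nat.xor vC (sW vC))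

/-- The isometries commuting with the sixteen elements are determined on one vector. -/
def commOK : Bool :=
  forceL ((e16.map fun e => mvC e wC) ++ e16.map fun e => mvC (mmC e tvC) wC) fun T =>
    (List.range 4096).all fun y =>
      !(hEqC y vC wC vC && fourC.all fun a => fourC.all fun b => hEqC (mvC a y) (mvC b y) (mvC a wC) (mvC b wC)) ||
        T.any (Nat.beq y)

/-- The sixteen elements and the transvection. -/
def sixOK : Bool :=
  Nat.beq e16.length 16 && Nat.beq coefC.length 12 &&
  (e16.all fun e => Nat.beq (mvC e vC) vC && Nat.beq (mvC (mmC e tvC) vC) vC &&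
    fourC.all fun a => Nat.beq (mvC (mmC e tvC) (mvC a wC)) (mvC a (mvC (mmC e tvC) wC)) &&
      Nat.beq (mvC e (mvC a wC)) (mvC a (mvC e wC))) &&
  (List.range 12).all fun k => Nat.beq (combC fullC (coefC.getD k 0)) (1 <<< k)

/-- No hyperplane through the seed is invariant. -/
def hypOK : Bool :=
  forceL (sylGenC 2 ++ sylGenC 3) fun gens => (List.range 32).all fun c => Nat.beq c 0 ||
    forceL (ySub c) fun Y => gens.any fun g => Y.any fun y => Y.any (Nat.beq (Nat.xor (mvC g y) (bB.getD (pivC c) 0)))

/-- The transvection fuses the two orbits. -/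
def moveOK : Bool :=
  force (maskL (orbL 1)) fun m => m.testBit (mvC tvC 1365)

theorem fix_ok : fixOK = true := by decide +kernel

theorem line_ok : lineOK = true := by decide +kernel

theorem comm_ok : commOK = true := by decide +kernel

theorem six_ok : sixOK = true := by decide +kernel

theorem hyp_ok : hypOK = true := by decide +kernel

theorem move_ok : moveOK = true := by decide +kernel

end Cfsg.Agent.H84.SixCover
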