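import Cfsg.Agent.H8.LFT.OrbitStab
import Cfsg.Agent.H84.SixCover.Cert

/-!
# Facts on the stabiliser of the seed of the long orbit
-/

set_option autoImplicit false
set_option linter.unusedSectionVars false
set_option maxRecDepth 20000

namespace Cfsg.Agent.H84.SixCover

open Matrix Cfsg.Agent.H8.U62 Cfsg.Agent.H8.U62.Setup Cfsg.Agent.H8.LFT

variable {F : Type} [Setup F]

/-- The seed vector. -/
noncomputable def sv : Fin 6 → F := vecF om vC

theorem sv_eq : (seedF (1 : Fin 2).1 : Fin 6 → F) = sv := rfl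

/-- The vectors of the span. -/
def U0 : Set (Fin 6 → F) := vecF om '' {y | y ∈ uC}

theorem xor_zero' (a : ℕ) : Nat.xor a 0 = a := Nat.xor_zero a

theorem spanC_cons (a : ℕ) (l : List ℕ) : spanC (a :: l) = spanC l ++ (spanC l).map (Nat.xor a) := by
  rw [spanC, forceL_eq]

theorem spanC_lt : ∀ l : List ℕ, (∀ a ∈ l, a < 4096) → ∀ y ∈ spanC l, y < 4096
  | [], _, y, hy => by simp only [spanC, List.mem_singleton] at hy; omega
  | a :: l, h, y, hy => by
    rw [spanC_cons, List.mem_append, List.mem_map] at hy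
    have ih := spanC_lt l fun b hb => h b (List.mem_cons_of_mem _ hb)
    rcases hy with hy | ⟨u, hu, rfl⟩
    · exact ih y hy
    · exact Nat.xor_lt_two_pow (n := 12) (h a List.mem_cons_self) (ih u hu)

theorem spanC_sub {S : Set (Fin 6 → F)} (h0 : (0 : Fin 6 → F) ∈ S)
    (hadd : ∀ x ∈ S, ∀ y ∈ S, x + y ∈ S) :
    ∀ l : List ℕ, (∀ a ∈ l, vecF om a ∈ S) → ∀ y ∈ spanC l, vecF om y ∈ S
  | [], _, y, hy => by
    simp only [spanC, List.mem_singleton] at hy
    rw [hy, vecF_zero _ hom two]; exact h0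
  | a :: l, h, y, hy => by
    rw [spanC_cons, List.mem_append, List.mem_map] at hy
    have ih := spanC_sub h0 hadd l fun b hb => h b (List.mem_cons_of_mem _ hb)
    rcases hy with hy | ⟨u, hu, rfl⟩
    · exact ih y hy
    · rw [vecF_xor _ hom two]; exact hadd _ (h a List.mem_cons_self) _ (ih u hu)

theorem uC_lt : ∀ y ∈ uC, y < 4096 := spanC_lt _ (by decide +kernel)

theorem mem_of_any {l : List ℕ} {y : ℕ} (h : l.any (Nat.beq y) = true) : y ∈ l := by
  obtain ⟨u, hu, e⟩ := List.any_eq_true.1 h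
  rwa [Nat.eq_of_beq_eq_true e]

/-- Vectors moved along the line by the sixteen elements lie in the span. -/
theorem mem_U0_of_fix {x : Fin 6 → F}
    (h : ∀ e ∈ e16, matF om e *ᵥ x = x ∨ matF om e *ᵥ x = x + sv) : x ∈ U0 := by
  obtain ⟨y, hy, rfl⟩ := exists_vecF x
  have hc := fix_ok
  simp only [fixOK, forceL_eq, force_eq, List.all_eq_true, List.mem_range, Bool.or_eq_true] at hc
  rcases hc y hy with h' | h'
  · exfalso
    rw [Bool.not_eq_true', List.all_eq_false] at h'
    obtain ⟨e, he, hb⟩ := h'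
    rw [Bool.or_eq_true] at hb
    refine hb ?_
    have hlt : mvC e y < 4096 := mvN_lt (om : F) hom two 6 _ _
    rcases h e he with e1 | e1
    · left
      rw [← vecF_mvC _ hom two] at e1
      rw [code_inj (F := F) hlt hy e1, show Nat.xor y y = 0 from Nat.xor_self y]
      rfl
    · right
      rw [← vecF_mvC _ hom two, sv, ← vecF_xor _ hom two] at e1
      rw [code_inj (F := F) hlt (Nat.xor_lt_two_pow (n := 12) hy (by decide)) e1]
      show Nat.beq ((y ^^^ vC) ^^^ y) vC = true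
      rw [Nat.xor_comm y vC, Nat.xor_assoc, Nat.xor_self, Nat.xor_zero]
      exact Nat.beq_refl _
  · exact ⟨y, mem_of_any h', rfl⟩

theorem ncard_U0 : (U0 : Set (Fin 6 → F)).ncard ≤ 64 := by
  have h := line_ok
  simp only [lineOK, forceL_eq, Bool.and_eq_true] at h
  refine le_trans (Set.ncard_image_le (List.finite_toSet uC)) ?_
  rw [show {y | y ∈ uC} = (uC.toFinset : Set ℕ) by ext; simp, Set.ncard_coe_finset]
  exact (List.toFinset_card_le _).trans (le_of_eq (Nat.eq_of_beq_eq_true h.1))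

theorem sv_mem : (sv : Fin 6 → F) ∈ U0 ∧ (om : F) • sv ∈ (U0 : Set (Fin 6 → F)) :=
  ⟨⟨vC, mem_of_any (by decide +kernel), rfl⟩, ⟨sW vC, mem_of_any (by decide +kernel), vecF_sW _ hom two _⟩⟩

/-- The span meets its multiple in the line. -/
theorem U0_line {x : Fin 6 → F} (hx : x ∈ U0) (hx' : (om : F) • x ∈ U0) :
    x = 0 ∨ x = sv ∨ x = (om : F) • sv ∨ x = sv + (om : F) • sv := by
  obtain ⟨y, hy, rfl⟩ := hx
  obtain ⟨u, hu, e⟩ := hx'
  rw [← vecF_sW _ hom two] at e
  have hlt : sW y < 4096 := by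
    refine Nat.or_lt_two_pow (n := 12) (lt_of_le_of_lt Nat.and_le_right (by decide)) ?_
    have : Nat.land (Nat.xor y (y >>> 1)) evM ≤ evM := Nat.and_le_right
    rw [Nat.shiftLeft_eq]; simp only [evM] at this ⊢; omega
  rw [code_inj (F := F) (uC_lt u hu) hlt e] at hu
  have h := line_ok
  simp only [lineOK, forceL_eq, Bool.and_eq_true, List.all_eq_true, Bool.or_eq_true, Bool.not_eq_true',
    List.any_eq_false] at h
  rcases h.2 y hy with (((e' | e') | e') | e') | e'
  · exact absurd (Nat.beq_refl (sW y)) (e' (sW y) hu)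
  · left; rw [Nat.eq_of_beq_eq_true e', vecF_zero _ hom two]
  · exact Or.inr (Or.inl (by rw [Nat.eq_of_beq_eq_true e']; rfl))
  · exact Or.inr (Or.inr (Or.inl (by rw [Nat.eq_of_beq_eq_true e', vecF_sW _ hom two]; rfl)))
  · exact Or.inr (Or.inr (Or.inr (by
      rw [Nat.eq_of_beq_eq_true e', vecF_xor _ hom two, vecF_sW _ hom two]; rfl)))

theorem hEqC_sound {a b c d : ℕ} : hEqC a b c d = true ↔
    hermForm 6 F 2 (vecF (om : F) a) (vecF om b) = hermForm 6 F 2 (vecF om c) (vecF om d) := by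
  rw [hermForm_vecF _ hom two, hermForm_vecF _ hom two, hEqC, Bool.and_eq_true, beq_iff_eq, beq_iff_eq]
  exact ⟨fun ⟨h1, h2⟩ => by rw [h1, h2], fun h => fe_inj h⟩

theorem combC_map {α : Type*} [AddCommGroup α] (f : ℕ → α) (hf : ∀ a b, f (Nat.xor a b) = f a + f b)
    (h0 : f 0 = 0) (g : ℕ → α) (hg : ∀ a b, g (Nat.xor a b) = g a + g b) (hg0 : g 0 = 0) :
    ∀ (l : List ℕ) (m : ℕ), (∀ a ∈ l, f a = g a) → f (combC l m) = g (combC l m)
  | [], m, _ => by rw [combC, h0, hg0]
  | a :: l, m, h => by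
    rw [combC, hf, hg, combC_map f hf h0 g hg hg0 l _ fun b hb => h b (List.mem_cons_of_mem _ hb)]
    congr 1
    cases m.testBit 0
    · rw [cond_false, h0, hg0]
    · rw [cond_true]; exact h a List.mem_cons_self

theorem four_cases : ∀ a ∈ fourC, a = oneC ∨ a ∈ e16 := by
  have h : (fourC.all fun a => Nat.beq a oneC || e16.any (Nat.beq a)) = true := by decide +kernel
  intro a ha
  rcases Bool.or_eq_true _ _ ▸ List.all_eq_true.1 h a ha with e | e
  · exact Or.inl (Nat.eq_of_beq_eq_true e)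
  · exact Or.inr (mem_of_any e)

theorem six_facts : e16.length = 16 ∧
    (∀ e ∈ e16, mvC e vC = vC ∧ mvC (mmC e tvC) vC = vC ∧ ∀ a ∈ fourC,
      mvC (mmC e tvC) (mvC a wC) = mvC a (mvC (mmC e tvC) wC) ∧ mvC e (mvC a wC) = mvC a (mvC e wC)) ∧
    ∀ k < 12, combC fullC (coefC.getD k 0) = 1 <<< k := by
  have h := six_ok
  simp only [sixOK, Bool.and_eq_true, List.all_eq_true, List.mem_range] at h
  exact ⟨Nat.eq_of_beq_eq_true h.1.1.1,
    fun e he => ⟨Nat.eq_of_beq_eq_true (h.1.2 e he).1.1, Nat.eq_of_beq_eq_true (h.1.2 e he).1.2,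
      fun a ha => ⟨Nat.eq_of_beq_eq_true ((h.1.2 e he).2 a ha).1, Nat.eq_of_beq_eq_true ((h.1.2 e he).2 a ha).2⟩⟩,
    fun k hk => Nat.eq_of_beq_eq_true (h.2 k hk)⟩

/-- An isometry fixing the seed and commuting with the sixteen elements. -/
theorem comm_cases (d : (Fin 6 → F) →ₗ[F] (Fin 6 → F))
    (hherm : ∀ x y, hermForm 6 F 2 (d x) (d y) = hermForm 6 F 2 x y) (hfix : d sv = sv)
    (hcomm : ∀ e ∈ e16, ∀ x, d (matF om e *ᵥ x) = matF om e *ᵥ d x) :
    ∃ e ∈ e16, (∀ x, d x = matF om e *ᵥ x) ∨ ∀ x, d x = matF om e *ᵥ (matF om tvC *ᵥ x) := by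
  obtain ⟨y, hy, hyd⟩ := exists_vecF (d (vecF (om : F) wC))
  have hfour : ∀ a ∈ fourC, d (vecF om (mvC a wC)) = vecF om (mvC a y) := by
    intro a ha
    rw [vecF_mvC _ hom two, vecF_mvC _ hom two, hyd]
    rcases four_cases a ha with rfl | ha'
    · rw [matF_oneC _ hom two, Matrix.one_mulVec, Matrix.one_mulVec]
    · exact hcomm a ha' _
  have hc := comm_ok
  simp only [commOK, forceL_eq, List.all_eq_true, List.mem_range, Bool.or_eq_true] at hc
  have hT := hc y hy
  rcases hT with hT | hT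
  · exfalso
    rw [Bool.not_eq_true', Bool.and_eq_false_iff] at hT
    have hfour' : (fourC.all fun a => fourC.all fun b =>
        hEqC (mvC a y) (mvC b y) (mvC a wC) (mvC b wC)) = true := by
      simp only [List.all_eq_true]
      intro a ha b hb
      rw [hEqC_sound (F := F), ← hfour a ha, ← hfour b hb, hherm]
    rcases hT with hT | hT
    · have h1 : hEqC y vC wC vC = true := by
        rw [hEqC_sound (F := F), hyd]
        conv_lhs => rw [show vecF (om : F) vC = sv from rfl, ← hfix, hherm]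
        rfl
      rw [h1] at hT; exact absurd hT (by simp)
    · rw [hfour'] at hT; exact absurd hT (by simp)
  have hext : ∀ M : ℕ, (∀ u ∈ fullC, d (vecF om u) = matF om M *ᵥ vecF om u) →
      ∀ x, d x = matF om M *ᵥ x := by
    intro M h
    have hk : ∀ k < 12, d (vecF om (1 <<< k)) = matF om M *ᵥ vecF om (1 <<< k) := by
      intro k hk
      rw [← six_facts.2.2 k hk]
      exact combC_map (fun u => d (vecF om u)) (fun a b => by rw [vecF_xor _ hom two, map_add])
        (by rw [vecF_zero _ hom two, map_zero]) (fun u => matF om M *ᵥ vecF om u)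
        (fun a b => by rw [vecF_xor _ hom two, Matrix.mulVec_add])
        (by rw [vecF_zero _ hom two, Matrix.mulVec_zero]) _ _ h
    have hl : d = (matF (om : F) M).mulVecLin := by
      refine (Pi.basisFun F (Fin 6)).ext fun j => ?_
      have hs : vecF (om : F) (1 <<< (2 * j.1)) = Pi.single j 1 := by
        funext i
        simp only [vecF, Nat.one_shiftLeft, Nat.testBit_two_pow, Pi.single_apply]
        by_cases hij : i = j
        · subst hij; simp [fe, bF]
        · have : i.1 ≠ j.1 := fun e => hij (Fin.ext e)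
          simp [fe, bF, hij, show ¬ 2 * j.1 = 2 * i.1 by omega, show ¬ 2 * j.1 = 2 * i.1 + 1 by omega]
      rw [Pi.basisFun_apply, Matrix.mulVecLin_apply, ← hs]
      exact hk _ (by omega)
    intro x; rw [hl, Matrix.mulVecLin_apply]
  have hfull : ∀ M : ℕ, mvC M vC = vC → (∀ a ∈ fourC, mvC M (mvC a wC) = mvC a (mvC M wC)) →
      mvC M wC = y → ∀ u ∈ fullC, d (vecF om u) = matF om M *ᵥ vecF om u := by
    intro M h1 h2 h3
    let S : Set (Fin 6 → F) := {x | d x = matF om M *ᵥ x}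
    have hv : vecF (om : F) vC ∈ S := by
      show d sv = _
      rw [hfix, ← vecF_mvC _ hom two, h1]; rfl
    have hw : vecF (om : F) wC ∈ S := by
      show d _ = _
      rw [← hyd, ← vecF_mvC _ hom two, h3]
    have hsm : ∀ u, vecF (om : F) u ∈ S → vecF (om : F) (sW u) ∈ S := fun u hu => by
      show d _ = _
      rw [vecF_sW _ hom two, map_smul, hu, Matrix.mulVec_smul]
    have ha : ∀ a ∈ fourC, vecF (om : F) (Nat.xor (mvC a wC) wC) ∈ S := fun a ha => by
      show d _ = _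
      rw [vecF_xor _ hom two, map_add, Matrix.mulVec_add, hw, hfour a ha, ← h3, ← h2 a ha, vecF_mvC _ hom two M]
    intro u hu
    simp only [fullC, List.mem_append, List.mem_cons, List.mem_flatMap, List.mem_map, List.not_mem_nil,
      or_false] at hu
    rcases hu with (rfl | rfl | rfl | rfl) | ⟨u', ⟨i, hi, rfl⟩, rfl | rfl⟩
    · exact hv
    · exact hsm _ hv
    · exact hw
    · exact hsm _ hw
    · exact ha _ (List.mem_cons_of_mem _ (List.mem_map.2 ⟨i, by simpa using hi, rfl⟩))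
    · exact hsm _ (ha _ (List.mem_cons_of_mem _ (List.mem_map.2 ⟨i, by simpa using hi, rfl⟩)))
  have hy' := mem_of_any hT
  simp only [List.mem_append, List.mem_map] at hy'
  rcases hy' with ⟨e, he, hye⟩ | ⟨e, he, hye⟩
  · obtain ⟨h1, -, h2⟩ := six_facts.2.1 e he
    exact ⟨e, he, Or.inl (hext e (hfull e h1 (fun a ha => (h2 a ha).2) hye))⟩
  · obtain ⟨-, h1, h2⟩ := six_facts.2.1 e he
    refine ⟨e, he, Or.inr fun x => ?_⟩
    rw [hext (mmC e tvC) (hfull _ h1 (fun a ha => (h2 a ha).1) hye) x, matF_mmC _ hom two, Matrix.mulVec_mulVec]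

/-- The transvection moves the short seed into the long orbit. -/
theorem tv_moves : matF om tvC *ᵥ (seedF 0 : Fin 6 → F) ∈
    MulAction.orbit (sub (F := F) 0) (seedF (1 : Fin 2).1 : Fin 6 → F) := by
  rw [orbit_eq]
  refine ⟨mvC tvC 1365, ?_, vecF_mvC _ hom two _ _⟩
  have h := move_ok
  simp only [moveOK, force_eq, testBit_maskL] at h
  exact h

theorem real_sylGenC (n : Fin 4) : ∀ A ∈ sylGenC n.1, Real (vst (F := F) (sylSeed n).1) A := by
  have h := syl_ok n
  simp only [sylOK, subIdxOK, forceL_eq, force_eq, Bool.and_eq_true, List.all_eq_true] at h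
  obtain ⟨⟨⟨-, hidx⟩, hfix⟩, -⟩ := h
  intro A hA
  obtain ⟨q, hq, rfl⟩ := List.mem_map.1 hA
  obtain ⟨g, hg, e⟩ := (real_subT (F := F) 0 _ (subT_mem (Nat.le_of_ble_eq_true (hidx q hq).1.1))).mmC
    ((real_monC q.2.1 q.2.2).mono (monoE_le_sub 0))
  refine ⟨g, ⟨hg, ?_⟩, e⟩
  show mat g *ᵥ (seedF (sylSeed n).1 : Fin 6 → F) = seedF (sylSeed n).1
  rw [e, seedF, ← vecF_mvC _ hom two]
  exact congrArg (vecF om) (Nat.eq_of_beq_eq_true (hfix _ hA))

/-- No hyperplane of the span through the seed is invariant under the stabiliser. -/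
theorem no_hyperplane {Y : Set (Fin 6 → F)} (hadd : ∀ x ∈ Y, ∀ y ∈ Y, x + y ∈ Y) (hYU : Y ⊆ U0)
    (hv : (sv : Fin 6 → F) ∈ Y) (hc : 32 ≤ Y.ncard) {τ : Fin 6 → F} (hτ : τ ∈ U0) (hw : τ ∉ Y)
    (hinv : ∀ g ∈ vst (F := F) 1, ∀ y ∈ Y, g • y ∈ Y) : False := by
  classical
  have h2 : ∀ x : Fin 6 → F, x + x = 0 := fun x => funext fun i => by
    show x i + x i = 0
    linear_combination (x i) * two (F := F)
  have h0 : (0 : Fin 6 → F) ∈ Y := h2 sv ▸ hadd _ hv _ hv
  have hUadd : ∀ x ∈ (U0 : Set (Fin 6 → F)), ∀ y ∈ (U0 : Set (Fin 6 → F)), x + y ∈ U0 := by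
    rintro _ ⟨u, hu, rfl⟩ _ ⟨y, hy, rfl⟩
    rw [← vecF_xor _ hom two]
    refine ⟨_, ?_, rfl⟩
    have hall : (uC.all fun u => uC.all fun y => uC.any (Nat.beq (Nat.xor u y))) = true := by decide +kernel
    exact mem_of_any (List.all_eq_true.1 (List.all_eq_true.1 hall u hu) y hy)
  have hU : U0 = Y ∪ (fun x => τ + x) '' Y := by
    refine (Set.eq_of_subset_of_ncard_le ?_ ?_ (Set.toFinite _)).symm
    · rintro x (hx | ⟨y, hy, rfl⟩)
      · exact hYU hx
      · exact hUadd _ hτ _ (hYU hy)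
    · rw [Set.ncard_union_eq ?_ (Set.toFinite _) (Set.toFinite _),
        Set.ncard_image_of_injective _ (fun a b h => add_left_cancel h)]
      · exact le_trans ncard_U0 (by omega)
      · refine Set.disjoint_left.2 ?_
        rintro x hx ⟨y, hy, rfl⟩
        refine hw ?_
        have := hadd _ hx _ hy
        rwa [add_assoc, h2, add_zero] at this
  have hbU : ∀ j : Fin 5, vecF (om : F) (bB.getD j.1 0) ∈ (U0 : Set (Fin 6 → F)) := fun j => by
    refine ⟨_, mem_of_any ?_, rfl⟩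
    revert j; decide +kernel
  have hout : ∀ x ∈ (U0 : Set (Fin 6 → F)), x ∉ Y → ∃ y ∈ Y, x = τ + y := by
    intro x hx hxY
    rw [hU] at hx
    obtain ⟨y, hy, e⟩ := hx.resolve_left hxY
    exact ⟨y, hy, e.symm⟩
  obtain ⟨c, hc32, hcb⟩ : ∃ c < 32, ∀ j : Fin 5,
      Nat.testBit c j.1 = !decide (vecF (om : F) (bB.getD j.1 0) ∈ Y) := by
    have hall : ∀ f : Fin 5 → Bool, ∃ c < 32, ∀ j : Fin 5, Nat.testBit c j.1 = f j := by decide +kernel
    exact hall _
  have hc0 : c ≠ 0 := by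
    rintro rfl
    obtain ⟨t, ht, e⟩ := hτ
    refine hw (e ▸ spanC_sub h0 hadd (vC :: bB) (fun a ha => ?_) t ?_)
    · rcases List.mem_cons.1 ha with rfl | ha
      · exact hv
      obtain ⟨j, hj, rfl⟩ := List.getElem_of_mem ha
      have hj' : j < 5 := hj
      have := hcb ⟨j, hj'⟩
      rw [Nat.zero_testBit, eq_comm, Bool.not_eq_false', decide_eq_true_eq, List.getD_eq_getElem?_getD,
        List.getElem?_eq_getElem hj] at this
      exact this
    · exact ht
  have hpiv : pivC c < 5 ∧ c.testBit (pivC c) = true := by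
    have : ∀ c < 32, c ≠ 0 → pivC c < 5 ∧ c.testBit (pivC c) = true := by decide +kernel
    exact this c hc32 hc0
  have hk : vecF (om : F) (bB.getD (pivC c) 0) ∉ Y := by
    have := (hpiv.2.symm.trans (hcb ⟨pivC c, hpiv.1⟩)).symm
    simpa using this
  have hsub : ∀ y ∈ ySub c, vecF (om : F) y ∈ Y := by
    refine spanC_sub h0 hadd _ fun a ha => ?_
    rcases List.mem_cons.1 ha with rfl | ha
    · exact hv
    obtain ⟨j, hj, rfl⟩ := List.mem_map.1 ha
    have hj' : j < 5 := List.mem_range.1 (List.mem_of_mem_filter hj)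
    have hcj := hcb ⟨j, hj'⟩
    simp only at hcj
    rw [hcj]
    by_cases hm : vecF (om : F) (bB.getD j 0) ∈ Y
    · rw [decide_eq_true hm, Bool.not_true, cond_false]; exact hm
    · obtain ⟨y1, hy1, e1⟩ := hout _ (hbU ⟨j, hj'⟩) hm
      obtain ⟨y2, hy2, e2⟩ := hout _ (hbU ⟨_, hpiv.1⟩) hk
      simp only at e1 e2
      rw [decide_eq_false hm, Bool.not_false, cond_true, vecF_xor _ hom two, e1, e2, add_add_add_comm, h2, zero_add]
      exact hadd _ hy1 _ hy2
  have h := hyp_ok
  simp only [hypOK, forceL_eq, List.all_eq_true, List.mem_range, List.any_eq_true, Bool.or_eq_true] at h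
  obtain ⟨A, hA, y, hy, u, hu, e⟩ := (h c hc32).resolve_left fun e => hc0 (Nat.eq_of_beq_eq_true e)
  obtain ⟨g, hg, hgA⟩ : Real (vst (F := F) 1) A := by
    rcases List.mem_append.1 hA with hA | hA
    · exact real_sylGenC (2 : Fin 4) A hA
    · exact real_sylGenC (3 : Fin 4) A hA
  have hgy := hinv g hg _ (hsub y hy)
  rw [smul_def, hgA, ← vecF_mvC _ hom two] at hgy
  refine hk ?_
  have := hadd _ hgy _ (hsub u hu)
  rwa [← Nat.eq_of_beq_eq_true e, vecF_xor _ hom two, ← add_assoc, h2, zero_add] at this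

end Cfsg.Agent.H84.SixCover
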