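import Cfsg.Agent.H8.LFT.LocalData
import Cfsg.Agent.H84.SixCover.Facts

/-!
# The intersection of `Q` with the subgroup of a conjugate
-/

set_option autoImplicit false
set_option linter.unusedSectionVars false
set_option maxRecDepth 20000

namespace Cfsg.Agent.H84.SixCover

open Matrix Cfsg.Agent.H8.U62 Cfsg.Agent.H8.U62.Setup Cfsg.Agent.H8.LFT

variable {G : Type*} [Group G] [Finite G] {z : G} {Q : Subgroup (Subgroup.centralizer ({z} : Set G))} [Q.Normal]
  {F : Type} [Setup F]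

/-- The representation seen from a moved seed. -/
noncomputable def mv (D : Model z Q F) (γ : SU6 F) : D.M →* SU6 F := (MulAut.conj γ⁻¹).toMonoidHom.comp D.ρ

variable (D : Model z Q F)

theorem mv_apply (γ : SU6 F) (m : D.M) : mv D γ m = γ⁻¹ * D.ρ m * γ := by simp [mv]

theorem mv_eq_one (γ : SU6 F) (m : D.M) : mv D γ m = 1 ↔ (m : Subgroup.centralizer ({z} : Set G)) ∈ Q := by
  rw [← D.ρ_ker m, mv_apply]
  constructor
  · intro h
    calc D.ρ m = γ * (γ⁻¹ * D.ρ m * γ) * γ⁻¹ := by group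
      _ = 1 := by rw [h]; group
  · intro h; rw [h]; group

theorem mv_mem {γ : SU6 F} (hγ : γ ∈ sub 0) (m : D.M) : mv D γ m ∈ sub (F := F) 0 := by
  rw [mv_apply]; exact mul_mem (mul_mem (inv_mem hγ) (D.ρ_range ▸ ⟨m, rfl⟩)) hγ

theorem mv_surj {γ : SU6 F} (hγ : γ ∈ sub 0) {x : SU6 F} (hx : x ∈ sub 0) : ∃ m, mv D γ m = x := by
  obtain ⟨m, hm⟩ := D.exists_rho (mul_mem (mul_mem hγ hx) (inv_mem hγ))
  exact ⟨m, by rw [mv_apply, hm]; group⟩

theorem mv_v (γ : SU6 F) (m : D.M) (y : Q) :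
    γ⁻¹ • D.v (cj (m : Subgroup.centralizer ({z} : Set G)) y) = mv D γ m • (γ⁻¹ • D.v y) := by
  rw [mv_apply, D.v_conj, ← smul_def, ← mul_smul, ← mul_smul, mul_inv_cancel_right]

theorem mv_fix {γ : SU6 F} (hγ : γ ∈ sub 0) {a : Q} (hv : γ • (sv : Fin 6 → F) = D.v a) (m : D.M) :
    (m : Subgroup.centralizer ({z} : Set G)) ∈ D.St a ↔ mv D γ m ∈ vst 1 := by
  have ha : γ⁻¹ • D.v a = sv := by rw [← hv, inv_smul_smul]
  rw [mem_vst, D.mem_St]
  constructor
  · intro h
    refine ⟨mv_mem D hγ m, ?_⟩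
    show mv D γ m • sv = sv
    conv_lhs => rw [← ha, ← mv_v, h, ha]
  · rintro ⟨-, h⟩
    have h' : mv D γ m • (sv : Fin 6 → F) = sv := h
    rw [← ha, ← mv_v] at h'
    exact smul_left_cancel _ h'

/-- Normal two-subgroups of the stabiliser consist of the sixteen elements. -/
theorem normal_two_mem {P : Subgroup (SU6 F)} (hD : P ≤ vst 1) (h2 : IsPGroup 2 P)
    (hn : ∀ s ∈ vst 1, ∀ d ∈ P, s * d * s⁻¹ ∈ P) : ∀ d ∈ P, ∃ e ∈ e16, mat d = matF (om : F) e := by
  have hS : Nat.card (vst (F := F) 1) = 5760 := card_vst 1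
  obtain ⟨P1, hP, hPc, hPm⟩ := exists_syl (F := F) 2
  obtain ⟨P', hP', hPc', hPm'⟩ := exists_syl (F := F) 3
  have e1 := le_of_normal_pgroup (a := 7) hP hD hPc (by rw [show (sylSeed 2).1 = 1 from rfl, hS]; norm_num) h2 hn
  have e2 := le_of_normal_pgroup (a := 7) hP' hD hPc' (by rw [show (sylSeed 3).1 = 1 from rfl, hS]; norm_num) h2 hn
  intro d hd
  obtain ⟨a, ha, ea⟩ := hPm d (e1 hd)
  obtain ⟨b, hb, eb⟩ := hPm' d (e2 hd)
  rcases Cfsg.Agent.H8.LFT.inter_facts.2.1 a ha with e | e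
  · exact ⟨_, e, by rw [matF_nrmC, ea]⟩
  · exact absurd (code_col_eq (F := F) (ea.symm.trans eb)) (e b hb)

/-- The data attached to a conjugate of `z` in `Q`. -/
structure Std (g : G) (a : Q) (γ : SU6 F) : Prop where
  loc : Loc Q g
  zmem : z ∈ (EE Q).map (MulAut.conj g).toMonoidHom
  into : ∀ m : D.M, (m : Subgroup.centralizer ({z} : Set G)) ∈ DG Q g → ∃ e ∈ e16, mat (mv D γ m) = matF om e
  onto : ∀ e ∈ e16, ∃ m : D.M, (m : Subgroup.centralizer ({z} : Set G)) ∈ DG Q g ∧ mat (mv D γ m) = matF om e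
  mem_iff : ∀ y : Q, gv y ∈ (EE Q).map (MulAut.conj g).toMonoidHom ↔ γ⁻¹ • D.v y ∈ (U0 : Set (Fin 6 → F))
  outer : ∃ d ∈ DG Q g, d ∉ D.M
  grp : ∃ P : Subgroup (SU6 F), P ≤ vst 1 ∧ Nat.card P = 16 ∧
    (∀ x ∈ vst 1, ∀ p ∈ P, x * p * x⁻¹ ∈ P) ∧ ∀ p, p ∈ P ↔ ∃ e ∈ e16, mat p = matF om e

theorem exists_std {g : G} {a : Q} (hgs : g * z * g⁻¹ = gv a) (hne : gv a ≠ z) {γ : SU6 F} (hγ : γ ∈ sub 0)
    (hv : γ • (sv : Fin 6 → F) = D.v a) : Std D g a γ := by
  classical
  have hs : g * z * g⁻¹ ∈ EE Q := ⟨_, a.2, hgs.symm⟩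
  have hne' : g * z * g⁻¹ ≠ z := hgs ▸ hne
  obtain ⟨-, hzE, -⟩ := D.inter_facts g hs hne'
  obtain ⟨-, hloc, -⟩ := D.local_structure g a hgs hne
  have hE := D.sing.conj g
  set E' := (EE Q).map (MulAut.conj g).toMonoidHom with hE'
  have ha1 : gv a ≠ 1 := fun e => hE.xne (hgs.trans e)
  have memE' : ∀ d ∈ DG Q g, (d : G) ∈ E' := fun d hd =>
    (Subgroup.mem_inf.1 (Subgroup.mem_subgroupOf.1 hd)).1
  have hDSt : ∀ d ∈ DG Q g, d ∈ D.St a := by
    intro d hd
    refine congrArg D.v (gv_injective ?_)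
    rw [gv_cj, ← hgs, hloc.fix d hd, mul_inv_cancel_right]
  let P : Subgroup (SU6 F) := ((DG Q g).subgroupOf D.M).map (mv D γ)
  have hPle : P ≤ vst 1 := by
    rintro _ ⟨m, hm, rfl⟩
    exact (mv_fix D hγ hv m).1 (hDSt _ hm)
  have h2DG : IsPGroup 2 (DG Q g) := by
    have h2E : IsPGroup 2 (EE Q) := IsPGroup.of_card (n := 13) (by
      rw [Subgroup.card_map_of_injective (Subgroup.subtype_injective _), D.card_Q])
    exact ((h2E.map (MulAut.conj g).toMonoidHom).to_le inf_le_left).comap_of_injective _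
      (Subgroup.subtype_injective _)
  have hP2 : IsPGroup 2 P := (h2DG.comap_of_injective D.M.subtype (Subgroup.subtype_injective _)).map _
  have hPn : ∀ x ∈ vst (F := F) 1, ∀ p ∈ P, x * p * x⁻¹ ∈ P := by
    intro x hx p hp
    obtain ⟨m, hm, rfl⟩ := hp
    obtain ⟨k, hk⟩ := mv_surj D hγ (mem_vst.1 hx).1
    have hkSt : (k : Subgroup.centralizer ({z} : Set G)) ∈ D.St a := (mv_fix D hγ hv k).2 (hk ▸ hx)
    obtain ⟨u, hu, e⟩ := D.exists_exact (a := cj (k : Subgroup.centralizer ({z} : Set G)) a) (r := a) hkSt ha1 hne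
    rw [cj_cj] at e
    let k' : D.M := ⟨u, D.le hu⟩ * k
    have hk' : mv D γ k' = x := by
      rw [map_mul, (mv_eq_one D γ ⟨u, D.le hu⟩).2 hu, one_mul, hk]
    have hc : (((k' : D.M) : Subgroup.centralizer ({z} : Set G)) : G) * (g * z * g⁻¹) =
        g * z * g⁻¹ * (((k' : D.M) : Subgroup.centralizer ({z} : Set G)) : G) := by
      rw [hgs]
      have e' := congrArg gv e
      rw [gv_cj] at e'
      exact mul_inv_eq_iff_eq_mul.1 e'
    refine ⟨k' * m * k'⁻¹, ?_, by rw [map_mul, map_mul, map_inv, hk']⟩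
    exact hloc.normalised _ hc _ hm
  have hPe := normal_two_mem hPle hP2 hPn
  -- orders
  have hP16 : 16 ≤ Nat.card P ∧ ∃ d ∈ DG Q g, d ∉ D.M := by
    let E := (DG Q g).map (QuotientGroup.mk' Q)
    let Em := ((DG Q g) ⊓ D.M).map (QuotientGroup.mk' Q)
    have hEM : ∀ d ∈ DG Q g, (QuotientGroup.mk' Q) d ∈ Em → d ∈ D.M := by
      intro d hd hm
      obtain ⟨d', hd', e⟩ := hm
      have := mul_mem hd'.2 (D.le (QuotientGroup.eq.1 e))
      rwa [mul_inv_cancel_left] at this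
    have h1 : Nat.card E ≤ 2 * Nat.card Em := by
      refine H18.card_le_two_mul fun x hx y hy hx' hy' => ?_
      obtain ⟨d, hd, rfl⟩ := hx
      obtain ⟨d', hd', rfl⟩ := hy
      refine ⟨d⁻¹ * d', ⟨(DG Q g).mul_mem ((DG Q g).inv_mem hd) hd', ?_⟩, by rw [map_mul, map_inv]⟩
      refine (Subgroup.mul_mem_iff_of_index_two D.index).2 ?_
      simp [Subgroup.inv_mem_iff, show d ∉ D.M from fun h => hx' ⟨d, ⟨hd, h⟩, rfl⟩,
        show d' ∉ D.M from fun h => hy' ⟨d', ⟨hd', h⟩, rfl⟩]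
    have h2 : Nat.card Em ≤ Nat.card P := by
      choose f hf hfe using fun x : Em => x.2
      refine Nat.card_le_card_of_injective
        (fun x => ⟨mv D γ ⟨f x, (hf x).2⟩, Subgroup.mem_map_of_mem _ (Subgroup.mem_subgroupOf.2 (hf x).1)⟩) ?_
      intro x y e
      have e' := congrArg Subtype.val e
      simp only at e'
      have hq : (⟨f x, (hf x).2⟩ : D.M)⁻¹ * ⟨f y, (hf y).2⟩ ∈ (mv D γ).ker := by
        rw [MonoidHom.mem_ker, map_mul, map_inv, e', inv_mul_cancel]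
      have hq' := (mv_eq_one D γ _).1 hq
      refine Subtype.ext ?_
      rw [← hfe x, ← hfe y]
      exact QuotientGroup.eq.2 hq'
    have h3 : Nat.card P ≤ 16 := by
      choose f hf hfe using fun p : P => hPe p.1 p.2
      have := Nat.card_le_card_of_injective (fun p => (⟨f p, hf p⟩ : {e // e ∈ e16}))
        (fun p q e => Subtype.ext (ext_mat (by rw [hfe p, hfe q, show f p = f q from congrArg Subtype.val e])))
      refine this.trans ?_
      rw [Nat.card_eq_fintype_card]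
      exact (Fintype.card_le_of_injective (fun e : {e // e ∈ e16} => (⟨e16.idxOf e.1, List.idxOf_lt_length_iff.2 e.2⟩ :
        Fin e16.length)) (fun e e' h => Subtype.ext ((List.idxOf_inj e.2).1 (congrArg Fin.val h)))).trans
        (by rw [Fintype.card_fin, six_facts.1])
    have hE32 : Nat.card E = 32 := hloc.card_E
    refine ⟨by omega, ?_⟩
    by_contra hno
    push Not at hno
    have h4 : Nat.card E ≤ Nat.card Em := Subgroup.card_le_of_le (by
      rintro _ ⟨d, hd, rfl⟩; exact ⟨d, ⟨hd, hno d hd⟩, rfl⟩)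
    omega
  have honto : ∀ e ∈ e16, ∃ m : D.M, (m : Subgroup.centralizer ({z} : Set G)) ∈ DG Q g ∧
      mat (mv D γ m) = matF om e := by
    choose f hf hfe using fun p : P => hPe p.1 p.2
    have hinj : Function.Injective (fun p => (⟨f p, hf p⟩ : {e // e ∈ e16})) := fun p q e =>
      Subtype.ext (ext_mat (by rw [hfe p, hfe q, show f p = f q from congrArg Subtype.val e]))
    have hc16 : Nat.card {e // e ∈ e16} ≤ 16 := by
      rw [Nat.card_eq_fintype_card]
      exact (Fintype.card_le_of_injective (fun e : {e // e ∈ e16} => (⟨e16.idxOf e.1, List.idxOf_lt_length_iff.2 e.2⟩ :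
        Fin e16.length)) (fun e e' h => Subtype.ext ((List.idxOf_inj e.2).1 (congrArg Fin.val h)))).trans
        (by rw [Fintype.card_fin, six_facts.1])
    have hbij := (Nat.bijective_iff_injective_and_card _).2 ⟨hinj,
      le_antisymm (Nat.card_le_card_of_injective _ hinj) (hc16.trans hP16.1)⟩
    intro e he
    obtain ⟨p, hp⟩ := hbij.2 ⟨e, he⟩
    obtain ⟨m, hm, hmp⟩ := p.2
    exact ⟨m, hm, by rw [hmp, hfe p, show f p = e from congrArg Subtype.val hp]⟩
  -- the classes of the intersection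
  have hfwd : ∀ y : Q, gv y ∈ E' → γ⁻¹ • D.v y ∈ (U0 : Set (Fin 6 → F)) := by
    intro y hy
    refine mem_U0_of_fix fun e he => ?_
    obtain ⟨m, hm, hme⟩ := honto e he
    have hc := hE.pair (hE.comm (memE' _ hm) hy)
    have key := mv_v D γ m y
    rw [smul_def (mv D γ m), hme] at key
    rw [← key]
    rcases hc with h | h
    · left
      rw [show cj (m : Subgroup.centralizer ({z} : Set G)) y = y from gv_injective (mul_inv_eq_one.1 h)]
    · right
      have h' : cj (m : Subgroup.centralizer ({z} : Set G)) y = a * y := gv_injective (by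
        rw [gv_cj]
        show _ = gv a * gv y
        rw [← hgs]
        exact mul_inv_eq_iff_eq_mul.1 h)
      have hva : γ⁻¹ • D.v a = sv := by rw [← hv, inv_smul_smul]
      rw [h', D.v_mul, ← hva]
      simp only [smul_def, Matrix.mulVec_add]
      exact add_comm _ _
  have hgrp : ∀ p, p ∈ P ↔ ∃ e ∈ e16, mat p = matF om e := fun p => ⟨hPe p, fun ⟨e, he, hpe⟩ => by
    obtain ⟨m, hm, hme⟩ := honto e he
    exact ⟨m, hm, ext_mat (hme.trans hpe.symm)⟩⟩
  have hPc : Nat.card P = 16 := le_antisymm (normal_two_one hPle hP2 hPn).1 hP16.1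
  refine ⟨hloc, hzE, fun m hm => hPe _ ⟨m, hm, rfl⟩, honto, fun y => ⟨hfwd y, fun hy => ?_⟩, hP16.2,
    P, hPle, hPc, hPn, hgrp⟩
  let S : Set (Fin 6 → F) := (fun y : Q => γ⁻¹ • D.v y) '' {y | gv y ∈ E'}
  have hS64 : 64 ≤ S.ncard := by
    have hR : Nat.card ↥(EE Q ⊓ E') ≤ Nat.card (↥S × Bool) := by
      have hex : ∀ r : ↥(EE Q ⊓ E'), ∃ y : Q, gv y = r.1 := fun r => by
        obtain ⟨c, hc, e⟩ := r.2.1
        exact ⟨⟨c, hc⟩, e⟩
      choose q hq using hex
      refine Nat.card_le_card_of_injective (fun r => (⟨γ⁻¹ • D.v (q r), q r, by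
        show gv (q r) ∈ E'
        rw [hq]; exact r.2.2, rfl⟩, decide (q r = D.lift (D.v (q r))))) ?_
      intro r r' e
      simp only [Prod.mk.injEq, Subtype.mk.injEq] at e
      have ev : D.v (q r) = D.v (q r') := smul_left_cancel _ (congrArg Subtype.val e.1)
      refine Subtype.ext ?_
      rw [← hq, ← hq]
      refine congrArg gv ?_
      obtain ⟨c, hc, ec⟩ := (D.v_eq_iff _ _).1 ev
      obtain ⟨c1, hc1, ec1⟩ := (D.v_eq_iff (D.lift (D.v (q r))) (q r)).1 (D.v_lift _)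
      obtain ⟨c2, hc2, ec2⟩ := (D.v_eq_iff (D.lift (D.v (q r'))) (q r')).1 (D.v_lift _)
      by_cases h1 : q r = D.lift (D.v (q r))
      · have h2 : q r' = D.lift (D.v (q r')) := of_decide_eq_true (e.2 ▸ decide_eq_true h1)
        rw [h1, h2, ev]
      · have h2 : ¬ q r' = D.lift (D.v (q r')) := of_decide_eq_false (e.2 ▸ decide_eq_false h1)
        have z1 : gv c1 = z := hc1.resolve_left fun h => h1 (by
          conv_lhs => rw [ec1, show c1 = 1 from gv_injective h, mul_one])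
        have z2 : gv c2 = z := hc2.resolve_left fun h => h2 (by
          conv_lhs => rw [ec2, show c2 = 1 from gv_injective h, mul_one])
        rw [ec1, ec2, ev, show c1 = c2 from gv_injective (z1.trans z2.symm)]
    rw [hloc.card_inter, Nat.card_prod, Nat.card_coe_set_eq, Nat.card_eq_fintype_card, Fintype.card_bool] at hR
    omega
  have hSU : S = U0 := Set.eq_of_subset_of_ncard_le (by rintro _ ⟨y', hy', rfl⟩; exact hfwd y' hy')
    (le_trans ncard_U0 hS64) (Set.toFinite _)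
  rw [← hSU] at hy
  obtain ⟨y', hy', e⟩ := hy
  obtain ⟨c, hc, rfl⟩ := (D.v_eq_iff y' y).1 (smul_left_cancel _ e)
  show gv y' * gv c ∈ E'
  refine mul_mem hy' ?_
  rcases hc with h | h <;> rw [h]
  · exact one_mem _
  · exact hzE

end Cfsg.Agent.H84.SixCover
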