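import Cfsg.Agent.H8.LFT.Perfect
import Cfsg.Agent.H3.Simple
import Cfsg.Agent.H84.SixCover.Std

/-!
# The element of order three and its centralizer
-/

set_option autoImplicit false
set_option linter.unusedSectionVars false
set_option maxRecDepth 20000

namespace Cfsg.Agent.H84.SixCover

open Matrix Cfsg.Agent.H8.U62 Cfsg.Agent.H8.U62.Setup Cfsg.Agent.H8.LFT
open scoped commutatorElement

variable {F : Type} [Setup F]

theorem add_self_vec (x : Fin 6 → F) : x + x = 0 := funext fun i => by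
  show x i + x i = 0
  linear_combination (x i) * two (F := F)

theorem scalar_cases {l : F} (h0 : l ≠ 0) (h1 : l ≠ 1) : l = om ∨ l = om * om := by
  obtain ⟨a, b, rfl⟩ := exists_fe l
  cases a <;> cases b <;> simp [fe, bF] at h0 h1 ⊢
  linear_combination -(Setup.hom (F := F))

theorem smul_sv_mem {l : F} (h0 : l ≠ 0) (h1 : l ≠ 1) : l • (sv : Fin 6 → F) ∈ (U0 : Set (Fin 6 → F)) := by
  rcases scalar_cases h0 h1 with rfl | rfl
  · exact sv_mem.2
  · refine ⟨sW (sW vC), mem_of_any (by decide +kernel), ?_⟩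
    rw [vecF_sW _ hom two, vecF_sW _ hom two, mul_smul]
    rfl

/-- A map preserving the norm and linear over the field preserves the form. -/
theorem herm_of_norm (d : (Fin 6 → F) →ₗ[F] (Fin 6 → F))
    (h : ∀ x, hermForm 6 F 2 (d x) (d x) = hermForm 6 F 2 x x) (x y : Fin 6 → F) :
    hermForm 6 F 2 (d x) (d y) = hermForm 6 F 2 x y := by
  have hadd : ∀ a b : Fin 6 → F, hermForm 6 F 2 (a + b) (a + b) =
      hermForm 6 F 2 a a + hermForm 6 F 2 b b + (hermForm 6 F 2 a b + hermForm 6 F 2 b a) := fun a b => by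
    simp only [hermForm, Pi.add_apply, ← Finset.sum_add_distrib]
    exact Finset.sum_congr rfl fun k _ => by linear_combination ((a k + b k) * a k * b k) * two (F := F)
  have hsm : ∀ a b : Fin 6 → F, hermForm 6 F 2 a ((om : F) • b) = om ^ 2 * hermForm 6 F 2 a b ∧
      hermForm 6 F 2 ((om : F) • b) a = om * hermForm 6 F 2 b a := fun a b => by
    simp only [hermForm, Pi.smul_apply, smul_eq_mul, Finset.mul_sum]
    exact ⟨Finset.sum_congr rfl fun k _ => by ring, Finset.sum_congr rfl fun k _ => by ring⟩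
  have e1 := h (x + y)
  rw [map_add, hadd, hadd, h, h] at e1
  have e2 := h (x + (om : F) • y)
  rw [map_add, map_smul, hadd, hadd, ← map_smul d om y, h, h, map_smul] at e2
  have e2 := add_left_cancel e2
  rw [(hsm (d x) (d y)).1, (hsm (d x) (d y)).2, (hsm x y).1, (hsm x y).2] at e2
  have e1' := add_left_cancel e1
  have e2' := e2
  linear_combination e2' - (om : F) * e1' - (hermForm 6 F 2 (d x) (d y) - hermForm 6 F 2 x y) * hom (F := F)

/-- The first subgroup is perfect. -/
theorem sub_perfect (L : Type) [Setup9 L] : commutator (sub (F := F) 0) = ⊤ := by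
  classical
  obtain ⟨iso⟩ := sub_mod_center_iso (F := F) (L := L) 0
  have hP := H3.isSimpleGroup_PSU (n := 4) (Setup9.hL (L := L)) (by norm_num) (by norm_num)
  haveI : Nontrivial (S0 F) := iso.toEquiv.nontrivial
  have hS : IsSimpleGroup (S0 F) :=
    IsSimpleGroup.isSimpleGroup_of_surjective iso.symm.toMonoidHom iso.symm.surjective
  have htop : commutator (S0 F) = ⊤ := by
    rcases hS.eq_bot_or_eq_top_of_normal _ (inferInstance : (commutator (S0 F)).Normal) with h | h
    · exfalso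
      obtain ⟨a, ha⟩ := exists_ne (1 : S0 F)
      refine ha (S0_center_trivial fun t => ?_)
      have hm : (⁅t, a⁆ : S0 F) ∈ commutator (S0 F) :=
        Subgroup.commutator_mem_commutator (Subgroup.mem_top t) (Subgroup.mem_top a)
      rw [h, Subgroup.mem_bot] at hm
      exact commutatorElement_eq_one_iff_mul_comm.1 hm
    · exact h
  have hmap : (commutator (sub (F := F) 0)).map (QuotientGroup.mk' (Z0 (F := F))) = ⊤ := by
    rw [← htop, commutator_def, Subgroup.map_commutator,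
      Subgroup.map_top_of_surjective _ (QuotientGroup.mk'_surjective _), commutator_def]
  have h5 : ∀ g ∈ sub (F := F) 0, g ^ 5 = 1 → g ∈ (commutator (sub (F := F) 0)).map (sub (F := F) 0).subtype := by
    intro g hg hg5
    have hm : QuotientGroup.mk' (Z0 (F := F)) ⟨g, hg⟩ ∈
        (commutator (sub (F := F) 0)).map (QuotientGroup.mk' (Z0 (F := F))) := by rw [hmap]; trivial
    obtain ⟨k, hk, e⟩ := hm
    have hc : k⁻¹ * ⟨g, hg⟩ ∈ Z0 (F := F) := QuotientGroup.eq.1 e
    set c := k⁻¹ * (⟨g, hg⟩ : sub (F := F) 0) with hcdef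
    have hcomm : Commute k c := Subtype.ext
      (Subgroup.mem_center_iff.1 (Subgroup.mem_subgroupOf.1 hc) (k : SU6 F))
    have hc3 : c ^ 3 = 1 := by
      have h3 : (⟨c, hc⟩ : Z0 (F := F)) ^ Nat.card (Z0 (F := F)) = 1 := pow_card_eq_one'
      rw [Nat.card_congr (Subgroup.subgroupOfEquivOfLe (center_le_sub 0)).toEquiv, card_center] at h3
      exact congrArg Subtype.val h3
    have hc5 : c ^ 5 ∈ commutator (sub (F := F) 0) := by
      have h' : (⟨g, hg⟩ : sub (F := F) 0) ^ 5 = 1 := Subtype.ext hg5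
      rw [show (⟨g, hg⟩ : sub (F := F) 0) = k * c by rw [hcdef, mul_inv_cancel_left], hcomm.mul_pow] at h'
      rw [eq_inv_of_mul_eq_one_right h']
      exact inv_mem (pow_mem hk 5)
    have hcD : c ∈ commutator (sub (F := F) 0) := by
      have e10 : (c ^ 5) ^ 2 = c := by
        rw [← pow_mul, show (5 * 2 : ℕ) = 3 * 3 + 1 by norm_num, pow_succ, pow_mul, hc3, one_pow, one_mul]
      rw [← e10]; exact pow_mem hc5 2
    exact ⟨⟨g, hg⟩, by simpa [hcdef] using mul_mem hk hcD, rfl⟩
  have hall := five_gen _ h5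
  refine (Subgroup.eq_top_iff' _).2 fun x => ?_
  obtain ⟨y, hy, e⟩ := Subgroup.mem_map.1 (hall x.2)
  rwa [show x = y from Subtype.ext e.symm]

variable {G : Type*} [Group G] [Finite G] {z : G} {Q : Subgroup (Subgroup.centralizer ({z} : Set G))} [Q.Normal]

/-- An element of order three acting on the classes as a scalar. -/
structure Scal (D : Model z Q F) (x : Subgroup.centralizer ({z} : Set G)) where
  l : F
  l_ne_zero : l ≠ 0
  l_ne_one : l ≠ 1
  cube : x * x * x = 1
  mem : x ∈ D.M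
  not_mem : x ∉ Q
  act : ∀ y : Q, D.v (cj x y) = l • D.v y
  conj_cases : ∀ h : Subgroup.centralizer ({z} : Set G), x⁻¹ * (h * x * h⁻¹) ∈ Q ∨ x * (h * x * h⁻¹) ∈ Q

variable {D : Model z Q F}

theorem exists_scal (D : Model z Q F) {X : Subgroup (Subgroup.centralizer ({z} : Set G))} (hX : Nat.card X = 3)
    (hXQ : (X ⊔ Q).Normal) : ∃ x, X = Subgroup.zpowers x ∧ Nonempty (Scal D x) := by
  classical
  have hne : X ≠ ⊥ := fun h => by rw [h, Subgroup.card_bot] at hX; norm_num at hX
  obtain ⟨x, hxX, hx1⟩ := (Subgroup.bot_or_exists_ne_one X).resolve_left hne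
  have hx3 : x ^ 3 = 1 := by
    have h3 : (⟨x, hxX⟩ : X) ^ Nat.card X = 1 := pow_card_eq_one'
    rw [hX] at h3
    exact congrArg Subtype.val h3
  have hord : orderOf x = 3 := by
    have : Fact (Nat.Prime 3) := ⟨Nat.prime_three⟩
    exact orderOf_eq_prime hx3 hx1
  have hXz : X = Subgroup.zpowers x :=
    (Subgroup.eq_of_le_of_card_ge (Subgroup.zpowers_le.2 hxX) (by rw [Nat.card_zpowers, hord, hX])).symm
  have hcube : x * x * x = 1 := by rw [← hx3]; simp [pow_succ, mul_assoc]
  have hxM : x ∈ D.M := by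
    have h : x = (x * x) ^ 2 := by
      rw [pow_two]
      calc x = (x * x * x) * x := by rw [hcube, one_mul]
        _ = _ := by group
    rw [h]; exact Subgroup.sq_mem_of_index_two D.index _
  have hxQ : x ∉ Q := by
    intro h
    have h2 : orderOf x ∣ 2 ^ 13 := by
      rw [← D.card_Q, ← Subgroup.orderOf_mk x h]; exact orderOf_dvd_natCard _
    rw [hord] at h2; norm_num at h2
  have hcases : ∀ h : Subgroup.centralizer ({z} : Set G), h * x * h⁻¹ ∈ Q ∨ x⁻¹ * (h * x * h⁻¹) ∈ Q ∨
      x * (h * x * h⁻¹) ∈ Q := by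
    intro h
    have hm : h * x * h⁻¹ ∈ X ⊔ Q := hXQ.conj_mem x (Subgroup.mem_sup_left hxX) h
    obtain ⟨y, hy, q, hq, e⟩ := Subgroup.mem_sup_of_normal_right.1 hm
    rw [hXz] at hy
    obtain ⟨n, hn, rfl⟩ : ∃ n < 3, x ^ n = y := by
      obtain ⟨j, hj⟩ := Submonoid.mem_powers_iff _ _ |>.1 (mem_powers_iff_mem_zpowers.2 hy)
      exact ⟨j % 3, Nat.mod_lt _ (by norm_num), by rw [← hord, pow_mod_orderOf]; exact hj⟩
    interval_cases n
    · left; rw [← e, pow_zero, one_mul]; exact hq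
    · right; left; rw [← e, pow_one, inv_mul_cancel_left]; exact hq
    · right; right; rw [← e, pow_two, ← mul_assoc, ← mul_assoc, hcube, one_mul]; exact hq
  have hcases' : ∀ h : Subgroup.centralizer ({z} : Set G), x⁻¹ * (h * x * h⁻¹) ∈ Q ∨ x * (h * x * h⁻¹) ∈ Q :=
    fun h => (hcases h).resolve_left fun hq => hxQ (by simpa [mul_assoc] using ‹Q.Normal›.conj_mem _ hq h⁻¹)
  let xm : D.M := ⟨x, hxM⟩
  let r : sub (F := F) 0 := ⟨D.ρ xm, D.ρ_range ▸ ⟨xm, rfl⟩⟩
  have hr1 : D.ρ xm ≠ 1 := fun h => hxQ ((D.ρ_ker xm).1 h)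
  have horb : ∀ t : sub (F := F) 0, t * r * t⁻¹ = r ∨ t * r * t⁻¹ = r⁻¹ := by
    intro t
    obtain ⟨m, hm⟩ := D.exists_rho t.2
    rcases hcases' m with hq | hq
    · left
      refine Subtype.ext ?_
      have := (D.ρ_ker (xm⁻¹ * (m * xm * m⁻¹))).2 hq
      rw [map_mul, map_inv, inv_mul_eq_one, map_mul, map_mul, map_inv, hm] at this
      exact this.symm
    · right
      refine Subtype.ext ?_
      have := (D.ρ_ker (xm * (m * xm * m⁻¹))).2 hq
      rw [map_mul, mul_eq_one_iff_eq_inv', map_mul, map_mul, map_inv, hm] at this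
      exact this
  have hrr : r⁻¹ ≠ r := by
    intro e
    refine hr1 ?_
    have h2 : D.ρ xm * D.ρ xm = 1 := by
      have := congrArg (fun t => (t * r).1) e
      simp at this
      exact this.symm
    have h3 : D.ρ xm * D.ρ xm * D.ρ xm = 1 := by
      rw [← map_mul, ← map_mul, show xm * xm * xm = 1 from Subtype.ext hcube, map_one]
    rwa [h2, one_mul] at h3
  let χ : sub (F := F) 0 →* ℤˣ := MonoidHom.mk' (fun t => if t * r * t⁻¹ = r then 1 else -1) fun a b => by
    have e : a * b * r * (a * b)⁻¹ = a * (b * r * b⁻¹) * a⁻¹ := by group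
    rw [e]
    have e' : a * r⁻¹ * a⁻¹ = (a * r * a⁻¹)⁻¹ := by group
    rcases horb a with ha | ha <;> rcases horb b with hb | hb <;> simp [ha, hb, e', hrr] <;> exact inv_inv r
  have hχ := hom_trivial (F := F) (QuotientGroup.mk' Z0) (QuotientGroup.mk'_surjective _) χ (fun t ht => by
    rw [QuotientGroup.ker_mk'] at ht
    refine MonoidHom.mem_ker.2 ?_
    show (if _ then (1 : ℤˣ) else -1) = 1
    rw [if_pos]
    refine mul_inv_eq_iff_eq_mul.2 (Subtype.ext ?_)
    exact (Subgroup.mem_center_iff.1 (Subgroup.mem_subgroupOf.1 ht) r.1).symm) (m := 2) (by norm_num)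
    (fun c => Int.units_sq c)
  have hcen : r ∈ Subgroup.center (sub (F := F) 0) := Subgroup.mem_center_iff.2 fun t => by
    have h' : (if t * r * t⁻¹ = r then (1 : ℤˣ) else -1) = 1 := hχ t
    split at h'
    · rename_i hc; rwa [mul_inv_eq_iff_eq_mul] at hc
    · exact absurd h' (by decide)
  rw [center_le_center_sub] at hcen
  obtain ⟨l, hl⟩ := (mem_center_iff' r.1).1 hcen
  refine ⟨x, hXz, ⟨⟨l, ?_, ?_, hcube, hxM, hxQ, fun y => ?_, hcases'⟩⟩⟩
  · intro h0
    have h := hl sv
    rw [h0, zero_smul] at h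
    have h' : r.1⁻¹ • (r.1 • (sv : Fin 6 → F)) = r.1⁻¹ • (0 : Fin 6 → F) := congrArg _ h
    rw [inv_smul_smul, smul_def, Matrix.mulVec_zero] at h'
    exact seedF_ne_zero (F := F) 1 h'
  · intro h1
    refine hr1 (ext_mat (Matrix.ext_of_mulVec_single fun i => ?_))
    rw [hl, h1, one_smul, mat_one, Matrix.one_mulVec]
  · rw [← hl (D.v y)]
    exact D.v_conj xm y

namespace Scal

variable {x : Subgroup.centralizer ({z} : Set G)} (S : Scal D x)

include S in
theorem fixed_Q {y : Q} (h : cj x y = y) : gv y = 1 ∨ gv y = z := by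
  refine (D.v_eq_zero y).1 ?_
  have h' := S.act y
  rw [h] at h'
  by_contra hne
  exact S.l_ne_one (smul_left_injective F hne (show S.l • D.v y = (1 : F) • D.v y by rw [one_smul]; exact h'.symm))

include S in
theorem exists_commuting {h : Subgroup.centralizer ({z} : Set G)} (hh : x⁻¹ * (h * x * h⁻¹) ∈ Q) :
    ∃ q ∈ Q, q * h * x = x * (q * h) := by
  set q1 : Q := ⟨_, hh⟩ with hq1
  have h1l : (1 : F) + S.l ≠ 0 := fun e => S.l_ne_one (by linear_combination e - two (F := F))
  let q : Q := D.lift ((S.l * (1 + S.l)⁻¹) • D.v q1)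
  refine ⟨q, q.2, ?_⟩
  have hv : D.v (q * cj x (q1 * q⁻¹)) = 0 := by
    have hq : D.v q = (S.l * (1 + S.l)⁻¹) • D.v q1 := D.v_lift _
    rw [D.v_mul, S.act, D.v_mul, D.v_inv, hq]
    funext i
    simp only [Pi.add_apply, Pi.smul_apply, smul_eq_mul, Pi.zero_apply]
    linear_combination (S.l * D.v q1 i) * (mul_inv_cancel₀ h1l) + (S.l * D.v q1 i) * two (F := F)
  set w := q * cj x (q1 * q⁻¹) with hw
  have hwz := (D.v_eq_zero w).1 hv
  have hwc : (w : Subgroup.centralizer ({z} : Set G)) * x = x * w := by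
    refine Subtype.ext ?_
    show gv w * (x : G) = (x : G) * gv w
    rcases hwz with e | e <;> rw [e]
    · simp
    · exact (Subgroup.mem_centralizer_singleton_iff.1 x.2).symm
  have hy : (q : Subgroup.centralizer ({z} : Set G)) * h * x * ((q : Subgroup.centralizer ({z} : Set G)) * h)⁻¹ =
      w.1 * x := by
    show _ = q.1 * (x * ((x⁻¹ * (h * x * h⁻¹)) * q.1⁻¹) * x⁻¹) * x
    group
  have hw1 : (w : Subgroup.centralizer ({z} : Set G)) = 1 := by
    have h3 : (w.1 * x) * (w.1 * x) * (w.1 * x) = 1 := by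
      rw [← hy]
      calc _ = (q : Subgroup.centralizer ({z} : Set G)) * h * (x * x * x) *
            ((q : Subgroup.centralizer ({z} : Set G)) * h)⁻¹ := by group
        _ = 1 := by rw [S.cube, mul_one, mul_inv_cancel]
    have e : (w.1 * x) * (w.1 * x) * (w.1 * x) = w.1 * w.1 * w.1 * (x * x * x) := by
      simp only [mul_assoc]
      rw [← mul_assoc x w.1, ← hwc, mul_assoc w.1 x, ← mul_assoc x w.1, ← hwc, mul_assoc w.1 x,
        ← mul_assoc x w.1 (x * x), ← hwc, mul_assoc]
    rw [e, S.cube, mul_one] at h3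
    rcases hwz with e' | e'
    · exact Subtype.ext e'
    · exfalso
      have h3' : gv w * gv w * gv w = 1 := congrArg Subtype.val h3
      rw [e', D.sing.xx, one_mul] at h3'
      exact D.sing.xne h3'
  rw [hw1, one_mul] at hy
  exact mul_inv_eq_iff_eq_mul.1 hy

include S in
theorem linear_of_conj {d : Subgroup.centralizer ({z} : Set G)} (hd : x⁻¹ * (d * x * d⁻¹) ∈ Q) :
    ∃ L : (Fin 6 → F) →ₗ[F] (Fin 6 → F), (∀ y, L (D.v y) = D.v (cj d y)) ∧
      ∀ u w, hermForm 6 F 2 (L u) (L w) = hermForm 6 F 2 u w := by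
  have hd' : ∀ y, D.L d (S.l • D.v y) = S.l • D.L d (D.v y) := fun y => by
    rw [← S.act, D.L_v, D.L_v, ← S.act, cj_cj, cj_cj]
    rw [show d * x = x * ((x⁻¹ * (d * x * d⁻¹)) * d) by group, ← cj_cj x (_ * d),
      ← cj_cj (x⁻¹ * (d * x * d⁻¹)) d, ← cj_cj x d, S.act, S.act, D.Q_le_St _ hd]
  have hlin : ∀ u, D.L d (S.l • u) = S.l • D.L d u := fun u => by
    obtain ⟨y, rfl⟩ := D.v_surj u; exact hd' y
  have hadd : ∀ u w, D.L d (u + w) = D.L d u + D.L d w := fun u w => by
    obtain ⟨a, rfl⟩ := D.v_surj u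
    obtain ⟨b, rfl⟩ := D.v_surj w
    rw [← D.v_mul, D.L_v, D.L_v, D.L_v, cj_mul, D.v_mul]
  have hzero : D.L d 0 = 0 := by
    have := hadd 0 0
    rwa [add_zero, left_eq_add] at this
  have hom' : ∀ u, D.L d ((om : F) • u) = (om : F) • D.L d u := fun u => by
    rcases scalar_cases S.l_ne_zero S.l_ne_one with e | e
    · rw [← e]; exact hlin u
    · have eo : (om : F) = S.l * S.l := by
        rw [e]; linear_combination -(om : F) * (cube_eq_one (om_ne_zero (F := F)))
      rw [eo, mul_smul, mul_smul, hlin, hlin]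
  have hsmul : ∀ (c : F) u, D.L d (c • u) = c • D.L d u := fun c u => by
    obtain ⟨a, b, rfl⟩ := exists_fe c
    cases a <;> cases b <;> simp [fe, bF, add_smul, hadd, hom', hzero]
  let L : (Fin 6 → F) →ₗ[F] (Fin 6 → F) := { toFun := D.L d, map_add' := hadd, map_smul' := hsmul }
  refine ⟨L, fun y => D.L_v d y, herm_of_norm L fun u => ?_⟩
  obtain ⟨y, rfl⟩ := D.v_surj u
  show hermForm 6 F 2 (D.L d (D.v y)) (D.L d (D.v y)) = _
  rw [D.L_v, D.v_sq, D.v_sq]
  classical
  refine if_congr ?_ rfl rfl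
  rw [show gv (cj d y) * gv (cj d y) = (d : G) * (gv y * gv y) * (d : G)⁻¹ by rw [gv_cj]; group]
  exact conj_eq_one_iff

end Scal

end Cfsg.Agent.H84.SixCover
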