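import Cfsg.Agent.H84.SixCover.NoSplit

/-!
# The centralizer of the element of order three is a sixfold cover
-/

set_option autoImplicit false
set_option linter.unusedSectionVars false
set_option maxRecDepth 20000

namespace Cfsg.Agent.H84.SixCover

open Matrix Cfsg.Agent.H8.U62 Cfsg.Agent.H8.U62.Setup Cfsg.Agent.H8.LFT

variable {G : Type*} [Group G] [Finite G] {z : G} {Q : Subgroup (Subgroup.centralizer ({z} : Set G))} [Q.Normal]

/-- The centralizer of a subgroup of order three covering the normal subgroup of order three. -/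
theorem six_cover (hF : Cfsg.IsOfLargeFischerTypeAt z Q) (X : Subgroup (Subgroup.centralizer ({z} : Set G)))
    (hX : Nat.card X = 3) (hXQ : (X ⊔ Q).Normal) :
    Cfsg.IsQuasisimple ↥(Subgroup.centralizer (X : Set (Subgroup.centralizer ({z} : Set G)))) ∧
      IsCyclic ↥(Subgroup.center ↥(Subgroup.centralizer (X : Set (Subgroup.centralizer ({z} : Set G))))) ∧
      Nat.card ↥(Subgroup.center ↥(Subgroup.centralizer (X : Set (Subgroup.centralizer ({z} : Set G))))) = 6 ∧
      ∃ (K : Type) (_ : Field K) (_ : Fintype K), Fintype.card K = 9 ∧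
        Nonempty (↥(Subgroup.centralizer (X : Set (Subgroup.centralizer ({z} : Set G)))) ⧸
          Subgroup.center ↥(Subgroup.centralizer (X : Set (Subgroup.centralizer ({z} : Set G)))) ≃* Cfsg.PSU 4 K 3) := by
  classical
  obtain ⟨D⟩ := exists_model hF
  obtain ⟨hs, N, M, -, -, -, -, -, ⟨K, fK, ftK, hK, -⟩, -⟩ := hF
  obtain ⟨im, him⟩ := exists_im hK
  letI : Setup9 K := { fK with im := im, him := him, fin := ftK, card := hK }
  obtain ⟨x, hXz, ⟨S⟩⟩ := exists_scal D hX hXQ
  have : Fact (Nat.Prime 3) := ⟨Nat.prime_three⟩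
  set Kc := Subgroup.centralizer (X : Set (Subgroup.centralizer ({z} : Set G))) with hKc
  have hmem : ∀ h, h ∈ Kc ↔ h * x = x * h := by
    intro h
    rw [hKc, Subgroup.mem_centralizer_iff]
    constructor
    · exact fun H => (H x (hXz ▸ Subgroup.mem_zpowers x)).symm
    · intro H y hy
      rw [hXz] at hy
      obtain ⟨i, rfl⟩ := Subgroup.mem_zpowers_iff.1 hy
      exact ((show Commute h x from H).zpow_right i).symm
  have hKM : Kc ≤ D.M := by
    intro h hh
    by_contra hc
    have h2 := S.inverts hs hc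
    rw [(hmem h).1 hh, mul_inv_cancel_right] at h2
    refine S.not_mem ?_
    have h4 : x = x * x * (x * x) := by
      calc x = x * x * x * x := by rw [S.cube, one_mul]
        _ = x * x * (x * x) := by group
    rw [h4]; exact mul_mem h2 h2
  let φ : Kc →* sub (F := GaloisField 2 2) 0 :=
    (D.ρ.comp (Subgroup.inclusion hKM)).codRestrict _ fun k => D.ρ_range ▸ ⟨_, rfl⟩
  have hφ : Function.Surjective φ := by
    intro t
    obtain ⟨m, hm⟩ := D.exists_rho t.2
    obtain ⟨q, hq, hqm⟩ := S.exists_commuting (S.conj_mem m)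
    refine ⟨⟨q * m, (hmem _).2 hqm⟩, Subtype.ext ?_⟩
    show D.ρ ⟨q * m, _⟩ = (t : SU6 (GaloisField 2 2))
    rw [show (⟨q * m, hKM ((hmem _).2 hqm)⟩ : D.M) = ⟨q, D.le hq⟩ * m from rfl, map_mul,
      (D.ρ_ker ⟨q, D.le hq⟩).2 hq, one_mul, hm]
  obtain ⟨c, hc⟩ := D.exists_zQ
  have hcx : (c : Subgroup.centralizer ({z} : Set G)) * x = x * c := Subtype.ext (by
    show gv c * (x : G) = (x : G) * gv c
    rw [hc]; exact (Subgroup.mem_centralizer_singleton_iff.1 x.2).symm)
  let zc : Kc := ⟨c, (hmem _).2 hcx⟩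
  have hzc1 : zc ≠ 1 := fun e => D.sing.xne (hc.symm.trans (congrArg (fun k : Kc => ((k : _) : G)) e))
  have hzc2 : zc * zc = 1 := Subtype.ext (Subtype.ext (by
    show gv c * gv c = 1
    rw [hc]; exact D.sing.xx))
  have hker : ∀ k : Kc, φ k = 1 → k = 1 ∨ k = zc := by
    intro k hk
    have hQ : (k : Subgroup.centralizer ({z} : Set G)) ∈ Q :=
      (D.ρ_ker (Subgroup.inclusion hKM k)).1 (congrArg Subtype.val hk)
    have hfix : cj x ⟨k, hQ⟩ = ⟨k, hQ⟩ := Subtype.ext (mul_inv_eq_iff_eq_mul.2 ((hmem _).1 k.2).symm)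
    rcases S.fixed_Q hfix with h | h
    · exact Or.inl (Subtype.ext (Subtype.ext h))
    · exact Or.inr (Subtype.ext (Subtype.ext (h.trans hc.symm)))
  have hφzc : φ zc = 1 := Subtype.ext ((D.ρ_ker (Subgroup.inclusion hKM zc)).2 c.2)
  have hperf : Group.IsPerfect Kc := by
    refine ⟨?_⟩
    set C := commutator Kc with hC
    have hmap : C.map φ = ⊤ := by
      rw [hC, commutator_def, Subgroup.map_commutator, Subgroup.map_top_of_surjective φ hφ, ← commutator_def,
        sub_perfect (F := GaloisField 2 2) K]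
    by_cases hzC : zc ∈ C
    · refine (Subgroup.eq_top_iff' _).2 fun k => ?_
      obtain ⟨d, hd, e⟩ : φ k ∈ C.map φ := hmap ▸ Subgroup.mem_top _
      have h1 : φ (d⁻¹ * k) = 1 := by rw [map_mul, map_inv, e, inv_mul_cancel]
      have := mul_mem hd (show d⁻¹ * k ∈ C by
        rcases hker _ h1 with h | h <;> rw [h]
        exacts [one_mem _, hzC])
      rwa [mul_inv_cancel_left] at this
    · exfalso
      have hb : Function.Bijective (φ.comp C.subtype) := by
        refine ⟨(injective_iff_map_eq_one _).2 fun d hd => ?_, fun t => ?_⟩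
        · rcases hker d hd with h | h
          · exact Subtype.ext h
          · exact absurd (h ▸ d.2) hzC
        · obtain ⟨d, hd, e⟩ : t ∈ C.map φ := hmap ▸ Subgroup.mem_top _
          exact ⟨⟨d, hd⟩, e⟩
      let e := MulEquiv.ofBijective (φ.comp C.subtype) hb
      refine no_split S hs (((Subgroup.inclusion hKM).comp C.subtype).comp e.symm.toMonoidHom) (fun t => ?_)
        (fun t => ?_)
      · exact congrArg Subtype.val (e.apply_symm_apply t)
      · exact (hmem _).1 ((e.symm t : C) : Kc).2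
  let xk : Kc := ⟨x, (hmem x).2 rfl⟩
  have hxk : xk ∈ Subgroup.center Kc := Subgroup.mem_center_iff.2 fun k => Subtype.ext ((hmem _).1 k.2)
  have hzk : zc ∈ Subgroup.center Kc := Subgroup.mem_center_iff.2 fun k => Subtype.ext (Subtype.ext (by
    show ((k : Subgroup.centralizer ({z} : Set G)) : G) * gv c = gv c * ((k : Subgroup.centralizer ({z} : Set G)) : G)
    rw [hc]; exact Subgroup.mem_centralizer_singleton_iff.1 (k : Subgroup.centralizer ({z} : Set G)).2))
  set y := xk * zc with hy
  have hord : orderOf y = 6 := by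
    have h3 : orderOf xk = 3 := by
      refine orderOf_eq_prime (Subtype.ext ?_) fun e => S.not_mem (by
        rw [show x = 1 from congrArg Subtype.val e]; exact one_mem _)
      show x ^ 3 = 1
      rw [← S.cube]; simp [pow_succ, mul_assoc]
    have h2 : orderOf zc = 2 := orderOf_eq_prime (by rw [pow_two, hzc2]) hzc1
    rw [hy, Commute.orderOf_mul_eq_mul_orderOf_of_coprime (Subgroup.mem_center_iff.1 hzk xk) (by rw [h3, h2]; norm_num),
      h3, h2]
  have hy' : y ∈ Subgroup.center Kc := mul_mem hxk hzk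
  have hcker : ((Subgroup.center Kc).map φ) ≤ Subgroup.center (sub (F := GaloisField 2 2) 0) := by
    rintro _ ⟨k, hk, rfl⟩
    refine Subgroup.mem_center_iff.2 fun t => ?_
    obtain ⟨j, rfl⟩ := hφ t
    rw [← map_mul, ← map_mul, Subgroup.mem_center_iff.1 hk j]
  have hc3 : Nat.card (Subgroup.center (sub (F := GaloisField 2 2) 0)) = 3 := by
    rw [center_le_center_sub, Nat.card_congr (Subgroup.subgroupOfEquivOfLe (center_le_sub 0)).toEquiv, card_center]
  set Zk := Subgroup.center Kc with hZk
  have hk2 : Nat.card (φ.comp Zk.subtype).ker ≤ 2 := by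
    refine le_trans (Nat.card_le_card_of_injective (fun k => decide ((k.1 : Kc) = 1)) ?_) (by simp)
    intro k k' h
    have hk := hker _ k.2
    have hk' := hker _ k'.2
    refine Subtype.ext (Subtype.ext ?_)
    rcases hk with e | e <;> rcases hk' with e' | e'
    · exact e.trans e'.symm
    · have h' : decide ((k.1 : Kc) = 1) = decide ((k'.1 : Kc) = 1) := h
      rw [decide_eq_decide] at h'
      exact absurd (e'.symm.trans (h'.1 e)) hzc1
    · have h' : decide ((k.1 : Kc) = 1) = decide ((k'.1 : Kc) = 1) := h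
      rw [decide_eq_decide] at h'
      exact absurd (e.symm.trans (h'.2 e')) hzc1
    · exact e.trans e'.symm
  have hmul := (φ.comp Zk.subtype).ker.card_mul_index
  rw [Subgroup.index_ker, MonoidHom.range_comp, Subgroup.range_subtype] at hmul
  have hy6 : 6 ≤ Nat.card Zk := by
    rw [← hord, ← Nat.card_zpowers]
    exact Subgroup.card_le_of_le (Subgroup.zpowers_le.2 hy')
  have hle3 : Nat.card (Zk.map φ) ≤ 3 := (Subgroup.card_le_of_le hcker).trans (le_of_eq hc3)
  have hmul' := Nat.mul_le_mul hk2 hle3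
  rw [hmul] at hmul'
  have h6 : Nat.card Zk = 6 := by omega
  have hmap : Zk.map φ = Subgroup.center (sub (F := GaloisField 2 2) 0) := by
    refine Subgroup.eq_of_le_of_card_ge hcker ?_
    rw [hc3]
    by_contra hlt
    have h := Nat.mul_le_mul hk2 (Nat.lt_succ_iff.1 (not_le.1 hlt))
    rw [hmul] at h
    omega
  have hgen : Subgroup.zpowers y = Zk :=
    Subgroup.eq_of_le_of_card_ge (Subgroup.zpowers_le.2 hy') (by rw [Nat.card_zpowers, hord, h6])
  let f : Kc →* S0 (GaloisField 2 2) := (QuotientGroup.mk' Z0).comp φ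
  have hf : Function.Surjective f := (QuotientGroup.mk'_surjective _).comp hφ
  have hfker : f.ker = Zk := by
    ext k
    rw [MonoidHom.mem_ker, show f k = QuotientGroup.mk' Z0 (φ k) from rfl, QuotientGroup.mk'_apply,
      QuotientGroup.eq_one_iff, show Z0 = Subgroup.center (sub (F := GaloisField 2 2) 0) from
        (center_le_center_sub 0).symm, ← hmap]
    constructor
    · rintro ⟨k', hk', e⟩
      have h1 : φ (k'⁻¹ * k) = 1 := by rw [map_mul, map_inv, e, inv_mul_cancel]
      have := mul_mem hk' (show k'⁻¹ * k ∈ Zk by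
        rcases hker _ h1 with h | h <;> rw [h]
        exacts [one_mem _, hzk])
      rwa [mul_inv_cancel_left] at this
    · exact fun hk => ⟨k, hk, rfl⟩
  obtain ⟨iso0⟩ := sub_mod_center_iso (F := GaloisField 2 2) (L := K) 0
  let iso : Kc ⧸ Zk ≃* Cfsg.PSU 4 K 3 :=
    ((QuotientGroup.quotientMulEquivOfEq hfker.symm).trans (QuotientGroup.quotientKerEquivOfSurjective f hf)).trans iso0
  haveI hP := H3.isSimpleGroup_PSU (n := 4) (Setup9.hL (L := K)) (by norm_num) (by norm_num)
  haveI : Nontrivial (Kc ⧸ Zk) := iso.toEquiv.nontrivial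
  refine ⟨⟨hperf, IsSimpleGroup.isSimpleGroup_of_surjective iso.symm.toMonoidHom iso.symm.surjective⟩, ?_, h6,
    K, fK, ftK, hK, ⟨iso⟩⟩
  exact ⟨⟨⟨y, hy'⟩, fun k => by
    obtain ⟨i, hi⟩ := Subgroup.mem_zpowers_iff.1 (show (k : Kc) ∈ Subgroup.zpowers y by rw [hgen]; exact k.2)
    exact ⟨i, Subtype.ext (by simpa using hi)⟩⟩⟩

end Cfsg.Agent.H84.SixCover
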