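import Cfsg.Agent.H84.SixCover.Tri

/-!
# The centralizer of the element of order three does not split over the centre
-/

set_option autoImplicit false
set_option linter.unusedSectionVars false
set_option maxRecDepth 20000

namespace Cfsg.Agent.H84.SixCover

open Matrix Cfsg.Agent.H8.U62 Cfsg.Agent.H8.U62.Setup Cfsg.Agent.H8.LFT

variable {G : Type*} [Group G] [Finite G] {z : G} {Q : Subgroup (Subgroup.centralizer ({z} : Set G))} [Q.Normal]
  {F : Type} [Setup F]

theorem mst_simple : IsSimpleGroup (mst (F := F) 1) := by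
  obtain ⟨iso⟩ : Nonempty (mst (F := F) 1 ≃* alternatingGroup (Fin 6)) := mst_iso 1
  haveI : IsSimpleGroup (alternatingGroup (Fin 6)) := alternatingGroup.isSimpleGroup (by simp)
  haveI : Nontrivial (mst (F := F) 1) := iso.toEquiv.nontrivial
  exact IsSimpleGroup.isSimpleGroup_of_surjective iso.symm.toMonoidHom iso.symm.surjective

theorem card_mst_one : Nat.card (mst (F := F) 1) = 360 := by
  obtain ⟨iso⟩ := mst_iso (F := F) 1
  have h : Nat.card (alternatingGroup (Fin 6)) = 360 := by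
    rw [nat_card_alternatingGroup, Nat.card_fin]; rfl
  rw [← h]
  exact Nat.card_congr iso.toEquiv

variable {D : Model z Q F} {x : Subgroup.centralizer ({z} : Set G)}

/-- There is no section commuting with the element of order three. -/
theorem no_split (S : Scal D x) (hs : Cfsg.IsExtraspecialCentralizerSetting z Q 6)
    (σ : sub (F := F) 0 →* D.M) (hσ : ∀ t, D.ρ (σ t) = (t : SU6 F))
    (hx : ∀ t, (σ t : Subgroup.centralizer ({z} : Set G)) * x = x * (σ t : Subgroup.centralizer ({z} : Set G))) :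
    False := by
  classical
  obtain ⟨g, a, T⟩ := exists_tri S hs
  obtain ⟨au, hu, hgu, hneu⟩ := T.exists_u S
  obtain ⟨⟨γ, hγ, hγv⟩, -, -⟩ := D.local_structure _ au hgu hneu
  have st' := exists_std D hgu hneu hγ hγv
  set g' := g⁻¹ * ((x : G) * g) with hg'
  obtain ⟨P, hPle, hPc, hPn, hPm⟩ := T.st.grp
  obtain ⟨P', hP'le, hP'c, hP'n, hP'm⟩ := st'.grp
  obtain ⟨hA2, hB2, hBA, hC⟩ := T.two_sq S
  set σG : sub (F := F) 0 →* G :=
    ((Subgroup.centralizer ({z} : Set G)).subtype.comp D.M.subtype).comp σ with hσG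
  -- the sixteen elements
  have hσP : ∀ o : sub (F := F) 0, (o : SU6 F) ∈ P → σG o ∈ P0 Q x g := by
    intro o ho
    obtain ⟨e, he, hoe⟩ := (hPm _).1 ho
    exact T.sigma_mem S hs he (hx o) (by rw [hσ]; exact hoe)
  have hker : ∀ o : sub (F := F) 0, σG o ∈ EE Q → o = 1 := by
    intro o ho
    obtain ⟨q, hq, e⟩ := ho
    have hq' : (σ o : Subgroup.centralizer ({z} : Set G)) ∈ Q := by
      rwa [show (σ o : Subgroup.centralizer ({z} : Set G)) = q from Subtype.ext e.symm]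
    have h := (D.ρ_ker _).2 hq'
    rw [hσ] at h
    exact Subtype.ext h
  have hsep : ∀ w ∈ EE Q, ∀ w' ∈ EE Q, ∀ o o' : sub (F := F) 0, w * σG o = w' * σG o' → o = o' ∧ w = w' := by
    intro w hw w' hw' o o' h
    have h1 : σG (o * o'⁻¹) = w⁻¹ * w' := by
      rw [map_mul, map_inv]
      calc σG o * (σG o')⁻¹ = w⁻¹ * (w * σG o) * (σG o')⁻¹ := by group
        _ = w⁻¹ * w' := by rw [h]; group
    have h2 : o = o' := mul_inv_eq_one.1 (hker _ (h1 ▸ mul_mem (inv_mem hw) hw'))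
    rw [h2] at h
    exact ⟨h2, mul_right_cancel h⟩
  -- the stabiliser in the monomial group fixes the three elements
  let ι : mst (F := F) 1 →* sub (F := F) 0 := Subgroup.inclusion fun m hm => (mst_le_vst 1 hm).1
  have hfix : ∀ m : mst (F := F) 1, σG (ι m) * gv a = gv a * σG (ι m) ∧
      σG (ι m) * gv (cj x a) = gv (cj x a) * σG (ι m) := by
    intro m
    set h := (σ (ι m) : Subgroup.centralizer ({z} : Set G)) with hh
    have hv : D.v a = D.v (cj h a) := by
      rw [hh, D.v_conj, hσ, T.ha]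
      exact (Subgroup.mem_inf.1 m.2).2.symm
    obtain ⟨c, hc, ec⟩ := (D.v_eq_iff _ _).1 hv
    have hhx : h * x = x * h := hx (ι m)
    have e2 : cj h (cj x a) = cj x (cj h a) := by rw [cj_cj, cj_cj, hhx]
    have e3 : cj h (cj x (cj x a)) = cj x (cj x (cj h a)) := by
      rw [cj_cj h x, hhx, ← cj_cj x h, cj_cj h x a, hhx, ← cj_cj x h a]
    have hc1 : c = 1 := by
      refine gv_injective ?_
      rcases hc with hc | hc
      · exact hc
      · exfalso
        have hp : a * cj x a * cj x (cj x a) = 1 := gv_injective T.prod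
        have h1 : cj h (a * cj x a * cj x (cj x a)) = 1 := by
          rw [hp]
          refine gv_injective ?_
          rw [gv_cj]
          show (h : G) * 1 * (h : G)⁻¹ = 1
          group
        rw [cj_mul, cj_mul, e2, e3, ec] at h1
        have h2 := congrArg gv h1
        have h3 : gv (a * c) * gv (cj x (a * c)) * gv (cj x (cj x (a * c))) = 1 := h2
        rw [twist D.sing hc, T.prod, one_mul] at h3
        exact D.sing.xne h3
    rw [hc1, mul_one] at ec
    have ea : (h : G) * gv a * (h : G)⁻¹ = gv a := congrArg gv ec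
    refine ⟨mul_inv_eq_iff_eq_mul.1 ea, mul_inv_eq_iff_eq_mul.1 ?_⟩
    have := congrArg gv e2
    rw [ec] at this
    exact this
  -- the transported homomorphism
  have hnz : ∀ m : mst (F := F) 1, g⁻¹ * σG (ι m) * g ∈ Subgroup.centralizer ({z} : Set G) := by
    intro m
    refine Subgroup.mem_centralizer_singleton_iff.2 ?_
    have h := (hfix m).1
    rw [← T.hgs] at h
    calc g⁻¹ * σG (ι m) * g * z = g⁻¹ * (σG (ι m) * (g * z * g⁻¹)) * g := by group
      _ = z * (g⁻¹ * σG (ι m) * g) := by rw [h]; group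
  let n : mst (F := F) 1 →* Subgroup.centralizer ({z} : Set G) :=
    MonoidHom.mk' (fun m => ⟨g⁻¹ * σG (ι m) * g, hnz m⟩) fun m m' => Subtype.ext (by
      show g⁻¹ * σG (ι (m * m')) * g = g⁻¹ * σG (ι m) * g * (g⁻¹ * σG (ι m') * g)
      rw [map_mul, map_mul]; group)
  haveI hsimp := mst_simple (F := F)
  have hcard := card_mst_one (F := F)
  have hinj : ∀ m, n m = 1 → m = 1 := by
    intro m hm
    have h1 : g⁻¹ * σG (ι m) * g = 1 := congrArg Subtype.val hm
    have h2 : σG (ι m) = 1 := by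
      calc σG (ι m) = g * (g⁻¹ * σG (ι m) * g) * g⁻¹ := by group
        _ = 1 := by rw [h1]; group
    have h3 := hker (ι m) (h2 ▸ one_mem _)
    exact Subtype.ext (congrArg Subtype.val h3 :)
  have hnM : ∀ m, n m ∈ D.M := by
    haveI := D.normal
    let φ := (QuotientGroup.mk' D.M).comp n
    rcases hsimp.eq_bot_or_eq_top_of_normal φ.ker φ.normal_ker with h | h
    · exfalso
      have h2 := Nat.card_le_card_of_injective φ ((MonoidHom.ker_eq_bot_iff φ).1 h)
      rw [hcard, ← Subgroup.index_eq_card, D.index] at h2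
      omega
    · intro m
      have hm : m ∈ φ.ker := h ▸ Subgroup.mem_top _
      exact (QuotientGroup.eq_one_iff _).1 hm
  let nM : mst (F := F) 1 →* D.M := n.codRestrict D.M hnM
  let ψ : mst (F := F) 1 →* SU6 F := (mv D γ).comp nM
  have hψmem : ∀ m, ψ m ∈ vst 1 := fun m => (mv_fix D hγ hγv (nM m)).1 (congrArg D.v (gv_injective (by
    rw [gv_cj, hu]
    show g⁻¹ * σG (ι m) * g * (g⁻¹ * gv (cj x a) * g) * (g⁻¹ * σG (ι m) * g)⁻¹ = g⁻¹ * gv (cj x a) * g
    calc _ = g⁻¹ * (σG (ι m) * gv (cj x a) * (σG (ι m))⁻¹) * g := by group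
      _ = _ := by rw [(hfix m).2, mul_inv_cancel_right])))
  have hψinj : Function.Injective ψ := by
    rcases hsimp.eq_bot_or_eq_top_of_normal ψ.ker ψ.normal_ker with h | h
    · exact (MonoidHom.ker_eq_bot_iff ψ).1 h
    · exfalso
      have hQ : ∀ m, n m ∈ Q := fun m => by
        have hm : m ∈ ψ.ker := by rw [h]; exact Subgroup.mem_top _
        exact (mv_eq_one D γ (nM m)).1 hm
      have hd := Subgroup.card_dvd_of_injective (n.codRestrict Q hQ) ((injective_iff_map_eq_one _).2 fun m hm =>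
        hinj m (congrArg Subtype.val hm))
      rw [hcard, D.card_Q] at hd
      norm_num at hd
  have hJP : ∀ m, ψ m ∈ P' → m = 1 := by
    have hK : (P'.comap ψ).Normal := ⟨fun p hp m => by
      show ψ (m * p * m⁻¹) ∈ P'
      rw [map_mul, map_mul, map_inv]
      exact hP'n _ (hψmem m) _ hp⟩
    rcases hsimp.eq_bot_or_eq_top_of_normal _ hK with h | h
    · intro m hm
      exact (Subgroup.mem_bot.1 (h ▸ Subgroup.mem_comap.2 hm))
    · exfalso
      have h2 := Nat.card_le_card_of_injective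
        (fun m : mst (F := F) 1 => (⟨ψ m, Subgroup.mem_comap.1 (h ▸ Subgroup.mem_top m)⟩ : P'))
        (fun m m' e => hψinj (congrArg Subtype.val e))
      omega
  have hgen : ∀ v ∈ vst (F := F) 1, ∃ m, ∃ p ∈ P', v = ψ m * p := by
    let f : mst (F := F) 1 × P' → vst (F := F) 1 := fun mp => ⟨ψ mp.1 * mp.2.1, mul_mem (hψmem _) (hP'le mp.2.2)⟩
    have hf : Function.Injective f := by
      rintro ⟨m, p⟩ ⟨m', p'⟩ e
      have e' : ψ m * p.1 = ψ m' * p'.1 := congrArg Subtype.val e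
      have h : ψ (m'⁻¹ * m) = p'.1 * p.1⁻¹ := by
        rw [map_mul, map_inv]
        calc (ψ m')⁻¹ * ψ m = (ψ m')⁻¹ * (ψ m * p.1) * p.1⁻¹ := by group
          _ = _ := by rw [e']; group
      have hm : m' = m := inv_mul_eq_one.1 (hJP _ (h ▸ mul_mem p'.2 (inv_mem p.2)))
      subst hm
      rw [Prod.mk.injEq]
      exact ⟨rfl, Subtype.ext (mul_left_cancel e')⟩
    have hS : Nat.card (vst (F := F) 1) = 5760 := card_vst 1
    have hbij := (Nat.bijective_iff_injective_and_card f).2 ⟨hf, by rw [Nat.card_prod, hcard, hP'c, hS]⟩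
    intro v hv
    obtain ⟨⟨m, p⟩, e⟩ := hbij.2 ⟨v, hv⟩
    exact ⟨m, p.1, p.2, (congrArg Subtype.val e).symm⟩
  -- the invariant hyperplane
  set A := gv a with hA
  set B := gv (cj x a) with hB
  let W : Set G := {1, A, B, A * B}
  have r1 : ∀ X, A * (A * X) = X := fun X => by rw [← mul_assoc, hA2, one_mul]
  have r2 : ∀ X, B * (B * X) = X := fun X => by rw [← mul_assoc, hB2, one_mul]
  have r3 : ∀ X, B * (A * X) = A * (B * X) := fun X => by rw [← mul_assoc, hBA, mul_assoc]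
  have hWmul : ∀ w ∈ W, ∀ w' ∈ W, w * w' ∈ W := by
    intro w hw w' hw'
    simp only [W, Set.mem_insert_iff, Set.mem_singleton_iff] at hw hw' ⊢
    rcases hw with rfl | rfl | rfl | rfl <;> rcases hw' with rfl | rfl | rfl | rfl <;>
      simp [mul_assoc, hA2, hB2, hBA, r1, r2, r3]
  have hA0 : A ∈ P0 Q x g := T.a_mem0 S
  have hB0 : B ∈ P0 Q x g := T.two_mem0 S
  have hWP : ∀ w ∈ W, w ∈ P0 Q x g ∧ w ∈ EE Q := by
    intro w hw
    simp only [W, Set.mem_insert_iff, Set.mem_singleton_iff] at hw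
    rcases hw with rfl | rfl | rfl | rfl
    exacts [⟨one_mem _, one_mem _⟩, ⟨hA0, gv_mem _⟩, ⟨hB0, gv_mem _⟩,
      ⟨mul_mem hA0 hB0, mul_mem (gv_mem _) (gv_mem _)⟩]
  have hWfix : ∀ w ∈ W, ∀ m, σG (ι m) * w * (σG (ι m))⁻¹ = w := by
    intro w hw m
    obtain ⟨h1, h2⟩ := hfix m
    simp only [W, Set.mem_insert_iff, Set.mem_singleton_iff] at hw
    rcases hw with rfl | rfl | rfl | rfl
    · group
    · rw [h1, mul_inv_cancel_right]
    · rw [h2, mul_inv_cancel_right]
    · calc σG (ι m) * (A * B) * (σG (ι m))⁻¹ =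
            (σG (ι m) * A * (σG (ι m))⁻¹) * (σG (ι m) * B * (σG (ι m))⁻¹) := by group
        _ = A * B := by rw [h1, h2, mul_inv_cancel_right, mul_inv_cancel_right]
  have hzW : z ∉ W := by
    have hne : ∀ q : Q, D.v q ≠ 0 → gv q ≠ z := fun q h e => h ((D.v_eq_zero q).2 (Or.inr e))
    have h2 : D.v (cj x a) ≠ 0 := by rw [T.v_two S]; exact smul_ne_zero S.l_ne_zero sv_ne
    intro hz
    simp only [W, Set.mem_insert_iff, Set.mem_singleton_iff] at hz
    rcases hz with h | h | h | h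
    · exact D.sing.xne h
    · exact T.hne h.symm
    · exact hne _ h2 h.symm
    · refine hne (cj x (cj x a)) ?_ (hC.trans h.symm)
      rw [S.act]; exact smul_ne_zero S.l_ne_zero h2
  let Y : Set (Fin 6 → F) := {v | ∃ q : Q, v = γ⁻¹ • D.v q ∧
    ∃ w ∈ W, ∃ o : sub (F := F) 0, (o : SU6 F) ∈ P ∧ g * gv q * g⁻¹ = w * σG o}
  have hP0wo : ∀ w ∈ W, ∀ o : sub (F := F) 0, (o : SU6 F) ∈ P → w * σG o ∈ P0 Q x g :=
    fun w hw o ho => mul_mem (hWP w hw).1 (hσP o ho)
  have hvadd : ∀ q q' : Q, γ⁻¹ • D.v (q * q') = γ⁻¹ • D.v q + γ⁻¹ • D.v q' := fun q q' => by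
    rw [D.v_mul, smul_def, smul_def, smul_def, Matrix.mulVec_add]
  have hadd : ∀ u ∈ Y, ∀ v ∈ Y, u + v ∈ Y := by
    rintro _ ⟨q, rfl, w, hw, o, ho, e⟩ _ ⟨q', rfl, w', hw', o', ho', e'⟩
    refine ⟨q * q', (hvadd q q').symm, w * w', hWmul w hw w' hw', o * o', mul_mem ho ho', ?_⟩
    show g * (gv q * gv q') * g⁻¹ = _
    calc g * (gv q * gv q') * g⁻¹ = g * gv q * g⁻¹ * (g * gv q' * g⁻¹) := by group
      _ = w * (σG o * w') * σG o' := by rw [e, e']; group
      _ = w * (w' * σG o) * σG o' := by rw [T.comm0 S (hσP o ho) (hWP w' hw').1]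
      _ = w * w' * σG (o * o') := by rw [map_mul]; group
  have hin : ∀ q : Q, ∀ w ∈ W, ∀ o : sub (F := F) 0, (o : SU6 F) ∈ P → g * gv q * g⁻¹ = w * σG o →
      gv q ∈ EC Q g' := by
    intro q w hw o ho e
    have h := (Tri.mem_P0.1 (e ▸ hP0wo w hw o ho : g * gv q * g⁻¹ ∈ P0 Q x g)).2
    rwa [show g⁻¹ * (g * gv q * g⁻¹) * g = gv q by group] at h
  have hYU : Y ⊆ U0 := by
    rintro _ ⟨q, rfl, w, hw, o, ho, e⟩
    exact (st'.mem_iff q).1 (hin q w hw o ho e)
  have hsv : (sv : Fin 6 → F) ∈ Y := by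
    refine ⟨au, ?_, B, by simp [W], 1, one_mem _, ?_⟩
    · exact (inv_smul_eq_iff.2 hγv.symm).symm
    · rw [map_one, mul_one, hu]; group
  have hvne : ∀ q q' : Q, γ⁻¹ • D.v q = γ⁻¹ • D.v q' →
      ∃ e ∈ W, g * gv q' * g⁻¹ = g * gv q * g⁻¹ * e := by
    intro q q' h
    obtain ⟨c, hc, rfl⟩ := (D.v_eq_iff q q').1 (smul_left_cancel _ h)
    refine ⟨g * gv c * g⁻¹, ?_, by show g * (gv q * gv c) * g⁻¹ = _; group⟩
    rcases hc with hc | hc <;> rw [hc]
    · simp [W]
    · rw [T.hgs]; simp [W, hA]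
  have hcount : 32 ≤ Y.ncard := by
    have hex : ∀ b : Bool × P, ∃ q : Q, g * gv q * g⁻¹ =
        (bif b.1 then B else 1) * σG ⟨b.2.1, (hPle b.2.2).1⟩ := by
      intro b
      have hw : (bif b.1 then B else 1) ∈ W := by cases b.1 <;> simp [W]
      obtain ⟨q, hq⟩ := exists_q (Subgroup.mem_inf.1 (Tri.mem_P0.1 (hP0wo _ hw ⟨b.2.1, (hPle b.2.2).1⟩ b.2.2))).1
      exact ⟨q, by rw [hq]; group⟩
    choose q hq using hex
    let f : Bool × P → Y := fun b => ⟨γ⁻¹ • D.v (q b), q b, rfl, (bif b.1 then B else 1),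
      by cases b.1 <;> simp [W], ⟨b.2.1, (hPle b.2.2).1⟩, b.2.2, hq b⟩
    have hf : Function.Injective f := by
      intro b b' h
      obtain ⟨e, he, hqq⟩ := hvne _ _ (congrArg Subtype.val h)
      rw [hq, hq, mul_assoc, T.comm0 S (hσP _ b.2.2) (hWP e he).1, ← mul_assoc] at hqq
      have hw : ∀ c : Bool, (bif c then B else 1) ∈ W := fun c => by cases c <;> simp [W]
      obtain ⟨ho, hwe⟩ := hsep _ (hWP _ (hw b'.1)).2 _ (hWP _ (hWmul _ (hw b.1) e he)).2 _ _ hqq
      have hb2 : b'.2 = b.2 := Subtype.ext (congrArg Subtype.val ho :)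
      obtain ⟨c, hc, heq⟩ : ∃ c : Q, (gv c = 1 ∨ gv c = z) ∧ g * gv c * g⁻¹ = e := by
        obtain ⟨c, hc, ec⟩ := (D.v_eq_iff _ _).1 (smul_left_cancel _ (congrArg Subtype.val h))
        refine ⟨c, hc, ?_⟩
        have h' : g * gv (q b') * g⁻¹ = g * gv (q b) * g⁻¹ * e := by
          rw [hq, hq, mul_assoc, T.comm0 S (hσP _ b.2.2) (hWP e he).1, ← mul_assoc]; exact hqq
        rw [ec] at h'
        refine mul_left_cancel (a := g * gv (q b) * g⁻¹) ?_
        rw [← h']
        show g * gv (q b) * g⁻¹ * (g * gv c * g⁻¹) = g * (gv (q b) * gv c) * g⁻¹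
        group
      have he2 : e = 1 ∨ e = A := by
        rcases hc with hc | hc
        · left; rw [← heq, hc]; group
        · right; rw [← heq, hc, T.hgs]
      have hB1 : B ≠ 1 := fun h' => hzW (by
        have h2 : D.v (cj x a) = 0 := (D.v_eq_zero _).2 (Or.inl h')
        rw [T.v_two S] at h2
        exact absurd h2 (smul_ne_zero S.l_ne_zero sv_ne))
      have hBA' : B ≠ A := T.two_ne S
      refine Prod.ext ?_ hb2.symm
      rcases b with ⟨c1, p1⟩; rcases b' with ⟨c2, p2⟩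
      rcases he2 with rfl | rfl <;> cases c1 <;> cases c2 <;> simp at hwe ⊢
      all_goals first
        | exact hB1 hwe
        | exact hB1 hwe.symm
        | exact hBA' hwe
        | exact hBA' hwe.symm
        | exact hBA' ((eq_inv_of_mul_eq_one_left hwe).trans (inv_eq_of_mul_eq_one_right hA2))
        | exact hBA' ((eq_inv_of_mul_eq_one_left hwe.symm).trans (inv_eq_of_mul_eq_one_right hA2))
    have h32 := Nat.card_le_card_of_injective f hf
    rw [Nat.card_prod, hPc, Nat.card_eq_fintype_card, Fintype.card_bool, Nat.card_coe_set_eq] at h32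
    exact h32
  obtain ⟨ht1, ht2⟩ := Tri.mem_P0.1 T.z_mem0
  obtain ⟨qt, hqt⟩ := exists_q ht1
  have hτ : γ⁻¹ • D.v qt ∈ (U0 : Set (Fin 6 → F)) := (st'.mem_iff qt).1 (hqt ▸ ht2)
  have hτY : γ⁻¹ • D.v qt ∉ Y := by
    rintro ⟨q, hv, w, hw, o, ho, e⟩
    obtain ⟨e0, he0, h⟩ := hvne qt q hv
    rw [hqt, show g * (g⁻¹ * z * g) * g⁻¹ = z by group, e] at h
    have h1 : w * σG o = z * e0 * σG 1 := by rw [map_one, mul_one]; exact h
    obtain ⟨-, hwz⟩ := hsep _ (hWP w hw).2 _ (mul_mem D.sing.mem (hWP e0 he0).2) _ _ h1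
    refine hzW ?_
    have hinv : e0⁻¹ = e0 := inv_eq_of_mul_eq_one_right (T.sq0 S (hWP e0 he0).1)
    rw [show z = w * e0⁻¹ by rw [hwz, mul_inv_cancel_right], hinv]
    exact hWmul w hw e0 he0
  refine no_hyperplane hadd hYU hsv hcount hτ hτY fun v hv y hy => ?_
  obtain ⟨m, p, hp, rfl⟩ := hgen v hv
  rw [mul_smul]
  have hP'inv : ∀ p ∈ P', ∀ y ∈ Y, p • y ∈ Y := by
    intro p hp y hy
    obtain ⟨e, he, hpe⟩ := (hP'm p).1 hp
    obtain ⟨k, hk, hke⟩ := st'.onto e he
    have hkp : mv D γ k = p := ext_mat (hke.trans hpe.symm)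
    obtain ⟨q, rfl, w, hw, o, ho, e'⟩ := id hy
    rw [← hkp, ← mv_v]
    have hE := D.sing.conj g'
    rcases hE.pair (hE.comm (Subgroup.mem_inf.1 (Subgroup.mem_subgroupOf.1 hk)).1 (hin q w hw o ho e')) with h | h
    · rw [show cj (k : Subgroup.centralizer ({z} : Set G)) q = q from gv_injective (mul_inv_eq_one.1 h)]
      exact hy
    · rw [show cj (k : Subgroup.centralizer ({z} : Set G)) q = au * q from gv_injective (by
        rw [gv_cj]
        show _ = gv au * gv q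
        rw [← hgu]
        exact mul_inv_eq_iff_eq_mul.1 h), hvadd, inv_smul_eq_iff.2 hγv.symm]
      exact hadd _ hsv _ hy
  obtain ⟨q, hq0, w, hw, o, ho, e⟩ := hP'inv p hp y hy
  rw [hq0]
  show mv D γ (nM m) • (γ⁻¹ • D.v q) ∈ Y
  rw [← mv_v]
  refine ⟨_, rfl, w, hw, ι m * o * (ι m)⁻¹, hPn _ (mst_le_vst 1 m.2) _ ho, ?_⟩
  rw [gv_cj, map_mul, map_mul, map_inv]
  show g * (g⁻¹ * σG (ι m) * g * gv q * (g⁻¹ * σG (ι m) * g)⁻¹) * g⁻¹ = _
  calc _ = σG (ι m) * (g * gv q * g⁻¹) * (σG (ι m))⁻¹ := by group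
    _ = (σG (ι m) * w * (σG (ι m))⁻¹) * (σG (ι m) * σG o * (σG (ι m))⁻¹) := by rw [e]; group
    _ = _ := by rw [hWfix w hw m]

end Cfsg.Agent.H84.SixCover
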