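import Cfsg.Agent.H84.SixCover.Basics

/-!
# Outer elements invert the element of order three; the lines of central involutions
-/

set_option autoImplicit false
set_option linter.unusedSectionVars false
set_option maxRecDepth 20000

namespace Cfsg.Agent.H84.SixCover

open Matrix Cfsg.Agent.H8.U62 Cfsg.Agent.H8.U62.Setup Cfsg.Agent.H8.LFT

variable {G : Type*} [Group G] [Finite G] {z : G} {Q : Subgroup (Subgroup.centralizer ({z} : Set G))} [Q.Normal]
  {F : Type} [Setup F] (D : Model z Q F)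

include D in
theorem exists_seed (hs : Cfsg.IsExtraspecialCentralizerSetting z Q 6) :
    ∃ (g : G) (a : Q), g * z * g⁻¹ = gv a ∧ gv a ≠ z ∧ D.v a = (sv : Fin 6 → F) := by
  obtain ⟨-, -, -, -, g, ⟨hq, hgQ⟩, hne⟩ := hs
  let a0 : Q := ⟨_, hgQ⟩
  have h1 := (D.local_structure g a0 rfl hne).1
  obtain ⟨a, ha⟩ := D.v_surj (sv : Fin 6 → F)
  have hnz : D.v a ≠ 0 := by rw [ha]; exact seedF_ne_zero 1
  have h2 : D.Cls 1 a := ⟨1, one_mem _, by rw [one_smul, ha]; rfl⟩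
  obtain ⟨c, hc⟩ := D.conj_of_cls h1 h2 (fun e => hnz ((D.v_eq_zero a).2 (Or.inl e)))
    (fun e => hnz ((D.v_eq_zero a).2 (Or.inr e)))
  refine ⟨(c : G) * g, a, ?_, fun e => hnz ((D.v_eq_zero a).2 (Or.inr e)), ha⟩
  rw [← hc, gv_cj, show gv a0 = g * z * g⁻¹ from rfl]
  group

theorem conj_eq_of_eq {g g' : G} (hs : H18.SingPt (EE Q) z) (e : g * z * g⁻¹ = g' * z * g'⁻¹) {y : G}
    (hy : y ∈ (EE Q).map (MulAut.conj g).toMonoidHom) : y ∈ (EE Q).map (MulAut.conj g').toMonoidHom := by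
  obtain ⟨q, hq, rfl⟩ := hy
  refine ⟨(g'⁻¹ * g) * q * (g'⁻¹ * g)⁻¹, hs.norm _ ?_ q hq, by simp [mul_assoc]⟩
  calc g'⁻¹ * g * z = g'⁻¹ * (g * z * g⁻¹) * g := by group
    _ = z * (g'⁻¹ * g) := by rw [e]; group

include D in
/-- The third conjugate on a line through `z`. -/
theorem inter_third {g g2 : G} {a : Q} (hgs : g * z * g⁻¹ = gv a) (hne : gv a ≠ z)
    (hg2 : g2 * z * g2⁻¹ = gv a * z) {y : G} (hy : y ∈ EE Q ⊓ (EE Q).map (MulAut.conj g).toMonoidHom) :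
    y ∈ (EE Q).map (MulAut.conj g2).toMonoidHom := by
  obtain ⟨c, hc⟩ := D.exists_zQ
  obtain ⟨-, hzE, -⟩ := D.inter_facts g ⟨_, a.2, hgs.symm⟩ (hgs ▸ hne)
  have hE := D.sing.conj g
  have ha1 : gv a ≠ 1 := fun e => hE.xne (hgs.trans e)
  have hv : D.v a = D.v (a * c) := (D.v_eq_iff _ _).2 ⟨c, Or.inr hc, rfl⟩
  obtain ⟨u, hu, e⟩ := D.exists_exact hv (fun e => hne (by
      have e' : gv a * gv c = 1 := e
      rw [hc] at e'
      rw [eq_inv_of_mul_eq_one_left e', D.sing.x_inv]))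
    (fun e => ha1 (by
      have e' : gv a * gv c = z := e
      rw [hc] at e'
      exact mul_eq_right.1 e'))
  have e' : (u : G) * g * z * ((u : G) * g)⁻¹ = g2 * z * g2⁻¹ := by
    have h := congrArg gv e
    rw [gv_cj, show gv (a * c) = gv a * z from congrArg (gv a * ·) hc] at h
    rw [hg2, ← h, ← hgs]
    group
  refine conj_eq_of_eq D.sing e' ?_
  have huE : (u : G) ∈ EE Q := ⟨u, hu, rfl⟩
  obtain ⟨w, hwE, hw⟩ : ∃ w ∈ (EE Q).map (MulAut.conj g).toMonoidHom, w = (u : G)⁻¹ * y * u := by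
    refine ⟨_, ?_, rfl⟩
    have hk := D.sing.comm (inv_mem huE) hy.1
    rcases D.sing.pair hk with h | h
    · rw [inv_inv, mul_inv_eq_one] at h
      rw [h]; exact hy.2
    · rw [inv_inv, mul_inv_eq_iff_eq_mul] at h
      rw [h]; exact mul_mem hzE hy.2
  obtain ⟨q, hq, rfl⟩ := hwE
  refine ⟨q, hq, ?_⟩
  have hw' : g * q * g⁻¹ = (u : G)⁻¹ * y * u := hw
  show (u : G) * g * q * ((u : G) * g)⁻¹ = y
  calc (u : G) * g * q * ((u : G) * g)⁻¹ = (u : G) * (g * q * g⁻¹) * (u : G)⁻¹ := by group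
    _ = y := by rw [hw']; group

variable {D} {x : Subgroup.centralizer ({z} : Set G)}

theorem Scal.conj_mem (S : Scal D x) (m : D.M) :
    x⁻¹ * ((m : Subgroup.centralizer ({z} : Set G)) * x * (m : Subgroup.centralizer ({z} : Set G))⁻¹) ∈ Q := by
  let xm : D.M := ⟨x, S.mem⟩
  refine (D.ρ_ker (xm⁻¹ * (m * xm * m⁻¹))).1 (ext_mat (Matrix.ext_of_mulVec_single fun i => ?_))
  obtain ⟨y, hy⟩ := D.v_surj (Pi.single i 1)
  rw [mat_one, Matrix.one_mulVec, ← hy, ← D.v_conj]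
  have key : ∀ y : Q, D.v (cj (m : Subgroup.centralizer ({z} : Set G)) (cj x y)) =
      D.v (cj x (cj (m : Subgroup.centralizer ({z} : Set G)) y)) := fun y => by
    rw [D.v_conj, S.act, S.act, D.v_conj, Matrix.mulVec_smul]
  refine D.L_injective x ?_
  rw [D.L_v, D.L_v, cj_cj,
    show x * ((xm⁻¹ * (m * xm * m⁻¹) : D.M) : Subgroup.centralizer ({z} : Set G)) =
      (m : Subgroup.centralizer ({z} : Set G)) * x * (m : Subgroup.centralizer ({z} : Set G))⁻¹ by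
      show x * (x⁻¹ * (_ * x * _⁻¹)) = _
      group,
    ← cj_cj, ← cj_cj, key, cj_cj (m : Subgroup.centralizer ({z} : Set G)), mul_inv_cancel, cj_one]

/-- Every element outside the index two subgroup inverts. -/
theorem Scal.inverts (S : Scal D x) (hs : Cfsg.IsExtraspecialCentralizerSetting z Q 6)
    {c : Subgroup.centralizer ({z} : Set G)} (hc : c ∉ D.M) : x * (c * x * c⁻¹) ∈ Q := by
  refine (S.conj_cases c).resolve_left fun hcc => ?_
  obtain ⟨g, a, hgs, hne, ha⟩ := exists_seed D hs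
  have st := exists_std D hgs hne (γ := 1) (one_mem _) (by rw [one_smul, ha])
  obtain ⟨d, hd, hdM⟩ := st.outer
  have hmem : d * c⁻¹ ∈ D.M := by
    refine (Subgroup.mul_mem_iff_of_index_two D.index).2 ?_
    simp [Subgroup.inv_mem_iff, hdM, hc]
  have hdd : x⁻¹ * (d * x * d⁻¹) ∈ Q := by
    have h1 := S.conj_mem ⟨_, hmem⟩
    have h2 := ‹Q.Normal›.conj_mem _ hcc (d * c⁻¹)
    have h := mul_mem h1 h2
    have e : x⁻¹ * (d * c⁻¹ * x * (d * c⁻¹)⁻¹) * (d * c⁻¹ * (x⁻¹ * (c * x * c⁻¹)) * (d * c⁻¹)⁻¹) =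
        x⁻¹ * (d * x * d⁻¹) := by group
    rwa [e] at h
  obtain ⟨L, hL, hLh⟩ := S.linear_of_conj hdd
  have hfixa : cj d a = a := gv_injective (by rw [gv_cj, ← hgs, st.loc.fix d hd, mul_inv_cancel_right])
  have hLv : L sv = sv := by rw [← ha, hL, hfixa]
  have hE := D.sing.conj g
  have memE' : ∀ d ∈ DG Q g, (d : G) ∈ (EE Q).map (MulAut.conj g).toMonoidHom := fun d hd =>
    (Subgroup.mem_inf.1 (Subgroup.mem_subgroupOf.1 hd)).1
  have hcomm : ∀ e ∈ e16, ∀ u, L (matF om e *ᵥ u) = matF om e *ᵥ L u := by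
    intro e he u
    obtain ⟨m, hm, hme⟩ := st.onto e he
    have hme' : mat (D.ρ m) = matF om e := by
      rw [← hme, mv_apply, inv_one, one_mul, mul_one]
    obtain ⟨y, rfl⟩ := D.v_surj u
    rw [← hme', ← D.v_conj, hL, hL, ← D.v_conj, cj_cj, cj_cj]
    have hw : d * m.1 * d⁻¹ * m.1⁻¹ ∈ Q := by
      rcases hE.pair (hE.comm (memE' d hd) (memE' _ hm)) with e' | e'
      · rw [show d * m.1 * d⁻¹ * m.1⁻¹ = 1 from Subtype.ext e']; exact one_mem _
      · rw [show d * m.1 * d⁻¹ * m.1⁻¹ = a.1 from Subtype.ext (e'.trans hgs)]; exact a.2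
    rw [show d * m.1 = d * m.1 * d⁻¹ * m.1⁻¹ * (m.1 * d) by group, ← cj_cj (d * m.1 * d⁻¹ * m.1⁻¹),
      D.Q_le_St _ hw]
  obtain ⟨e, he, hcase⟩ := comm_cases L hLh hLv hcomm
  obtain ⟨m, hm, hme⟩ := st.onto e he
  have hme' : mat (D.ρ m) = matF om e := by rw [← hme, mv_apply, inv_one, one_mul, mul_one]
  rcases hcase with h | h
  · -- the element acts as an inner one
    have hQ : m.1⁻¹ * d ∈ Q := by
      have hz : ((m.1⁻¹ * d : Subgroup.centralizer ({z} : Set G)) : G) ∈ EE Q := by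
        refine D.sing.mem_of_disp (Subgroup.mem_centralizer_singleton_iff.1 (m.1⁻¹ * d).2) fun q hq => ?_
        obtain ⟨q', hq', rfl⟩ := hq
        have h1 : D.v (cj (m.1⁻¹ * d) ⟨q', hq'⟩) = D.v ⟨q', hq'⟩ := by
          refine D.L_injective m.1 ?_
          rw [D.L_v, D.L_v, cj_cj, mul_inv_cancel_left, D.v_conj, hme', ← h, hL]
        obtain ⟨c0, hc0, e0⟩ := (D.v_eq_iff _ _).1 h1.symm
        rw [H18.mem_zpowers_iff_pair D.sing.xx]
        have e1 : ((m.1⁻¹ * d : Subgroup.centralizer ({z} : Set G)) : G) * (q' : G) *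
            ((m.1⁻¹ * d : Subgroup.centralizer ({z} : Set G)) : G)⁻¹ = (q' : G) * gv c0 := congrArg gv e0
        rw [Subgroup.coe_subtype, e1, inv_mul_cancel_left]
        exact hc0
      obtain ⟨q, hq, e0⟩ := hz
      rwa [show m.1⁻¹ * d = q from Subtype.ext e0.symm]
    refine hdM ?_
    have := mul_mem m.2 (D.le hQ)
    rwa [mul_inv_cancel_left] at this
  · -- the transvection would fuse the orbits
    obtain ⟨y0, hy0⟩ := D.v_surj (seedF 0 : Fin 6 → F)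
    have h0 : D.Cls 0 y0 := ⟨1, one_mem _, by rw [one_smul, hy0]; rfl⟩
    have hv : D.v (cj (m.1⁻¹ * d) y0) = matF om tvC *ᵥ (seedF 0 : Fin 6 → F) := by
      refine D.L_injective m.1 ?_
      rw [D.L_v, cj_cj, mul_inv_cancel_left, ← hL, h, hy0]
      obtain ⟨y1, hy1⟩ := D.v_surj (matF om tvC *ᵥ (seedF 0 : Fin 6 → F))
      rw [← hy1, D.L_v, D.v_conj, hme']
    obtain ⟨⟨γ, hγ⟩, hγe⟩ := tv_moves (F := F)
    have h1 : D.Cls 1 (cj (m.1⁻¹ * d) y0) := ⟨γ, hγ, by rw [hv]; exact hγe⟩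
    exact absurd (D.cls_cj _ h0 h1) (by decide)

end Cfsg.Agent.H84.SixCover
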