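import Cfsg.Agent.H84.SixCover.Outer

/-!
# Three conjugates permuted by the element of order three
-/

set_option autoImplicit false
set_option linter.unusedSectionVars false
set_option maxRecDepth 20000

namespace Cfsg.Agent.H84.SixCover

open Matrix Cfsg.Agent.H8.U62 Cfsg.Agent.H8.U62.Setup Cfsg.Agent.H8.LFT

variable {G : Type*} [Group G] [Finite G] {z : G} {Q : Subgroup (Subgroup.centralizer ({z} : Set G))} [Q.Normal]
  {F : Type} [Setup F]

/-- The conjugate of the image of `Q`. -/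
abbrev EC (Q : Subgroup (Subgroup.centralizer ({z} : Set G))) (g : G) : Subgroup G :=
  (EE Q).map (MulAut.conj g).toMonoidHom

theorem mem_EC {g y : G} : y ∈ EC Q g ↔ g⁻¹ * y * g ∈ EE Q := by
  constructor
  · rintro ⟨q, hq, rfl⟩
    show g⁻¹ * (g * q * g⁻¹) * g ∈ EE Q
    rwa [show g⁻¹ * (g * q * g⁻¹) * g = q by group]
  · intro h
    refine ⟨_, h, ?_⟩
    show g * (g⁻¹ * y * g) * g⁻¹ = y
    group

theorem gv_mem (q : Q) : gv q ∈ EE Q := ⟨_, q.2, rfl⟩

theorem exists_q {y : G} (hy : y ∈ EE Q) : ∃ q : Q, gv q = y := by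
  obtain ⟨c, hc, rfl⟩ := hy
  exact ⟨⟨c, hc⟩, rfl⟩

theorem mv_one (D : Model z Q F) (m : D.M) : mv D 1 m = D.ρ m := by
  rw [mv_apply, inv_one, one_mul, mul_one]

theorem sv_ne : (sv : Fin 6 → F) ≠ 0 := seedF_ne_zero 1

/-- Twisting three permuted elements by the involution. -/
theorem twist (hE : H18.SingPt (EE Q) z) {x : Subgroup.centralizer ({z} : Set G)} {a c : Q} (hc : gv c = z) :
    gv (a * c) * gv (cj x (a * c)) * gv (cj x (cj x (a * c))) =
      gv a * gv (cj x a) * gv (cj x (cj x a)) * z := by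
  have hcx : cj x c = c := gv_injective (by
    rw [gv_cj, hc, Subgroup.mem_centralizer_singleton_iff.1 x.2, mul_inv_cancel_right])
  rw [cj_mul, hcx, cj_mul, hcx]
  show gv a * gv c * (gv (cj x a) * gv c) * (gv (cj x (cj x a)) * gv c) = _
  rw [hc]
  set A := gv a
  set B := gv (cj x a) with hB'
  set C := gv (cj x (cj x a)) with hC'
  have hB : z * B = B * z := (hE.comm_x _ (gv_mem (cj x a))).symm
  have hC : z * C = C * z := (hE.comm_x _ (gv_mem (cj x (cj x a)))).symm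
  calc A * z * (B * z) * (C * z) = A * (z * B) * (z * C) * z := by group
    _ = A * (B * z) * (C * z) * z := by rw [hB, hC]
    _ = A * B * (z * C) * (z * z) := by group
    _ = A * B * C * z * (z * z) := by rw [hC]; group
    _ = A * B * C * z := by rw [hE.xx, mul_one]

/-- A seed whose three conjugates multiply to one. -/
structure Tri (D : Model z Q F) (x : Subgroup.centralizer ({z} : Set G)) (g : G) (a : Q) : Prop where
  hgs : g * z * g⁻¹ = gv a
  hne : gv a ≠ z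
  ha : D.v a = (sv : Fin 6 → F)
  prod : gv a * gv (cj x a) * gv (cj x (cj x a)) = 1

variable {D : Model z Q F} {x : Subgroup.centralizer ({z} : Set G)}

theorem exists_tri (S : Scal D x) (hs : Cfsg.IsExtraspecialCentralizerSetting z Q 6) :
    ∃ (g : G) (a : Q), Tri D x g a := by
  obtain ⟨g, a, hgs, hne, ha⟩ := exists_seed D hs
  have hp0 : D.v (a * cj x a * cj x (cj x a)) = 0 := by
    have h0 : (1 : F) + S.l + S.l * S.l = 0 :=
      (mul_eq_zero.1 (show (1 - S.l) * (1 + S.l + S.l * S.l) = 0 by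
        linear_combination -(cube_eq_one S.l_ne_zero))).resolve_left (sub_ne_zero.2 (Ne.symm S.l_ne_one))
    rw [D.v_mul, D.v_mul, S.act (cj x a), S.act a, ha]
    funext i
    simp only [Pi.add_apply, Pi.smul_apply, smul_eq_mul, Pi.zero_apply]
    linear_combination (sv (F := F) i) * h0
  rcases (D.v_eq_zero _).1 hp0 with h | h
  · exact ⟨g, a, hgs, hne, ha, h⟩
  obtain ⟨c, hc⟩ := D.exists_zQ
  have ha' : D.v (a * c) = sv := by rw [D.v_mul, (D.v_eq_zero c).2 (Or.inr hc), add_zero, ha]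
  have hne1 : gv (a * c) ≠ 1 := fun e => sv_ne (F := F) (ha' ▸ (D.v_eq_zero _).2 (Or.inl e))
  have hne2 : gv (a * c) ≠ z := fun e => sv_ne (F := F) (ha' ▸ (D.v_eq_zero _).2 (Or.inr e))
  obtain ⟨u, -, e⟩ := D.exists_exact (a := a) (r := a * c) (ha.trans ha'.symm) hne1 hne2
  refine ⟨(u : G) * g, a * c, ?_, hne2, ha', ?_⟩
  · rw [← e, gv_cj, ← hgs]; group
  · rw [twist D.sing hc]
    have h' : gv a * gv (cj x a) * gv (cj x (cj x a)) = z := h
    rw [h', D.sing.xx]

/-- The common part of two conjugates of `Q`. -/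
def P0 (Q : Subgroup (Subgroup.centralizer ({z} : Set G))) (x : Subgroup.centralizer ({z} : Set G)) (g : G) :
    Subgroup G := EC Q g ⊓ EC Q ((x : G) * g)

namespace Tri

variable {g : G} {a : Q} (T : Tri D x g a) (S : Scal D x)

include T in
theorem st : Std D g a 1 := exists_std D T.hgs T.hne (one_mem _) (by rw [one_smul, T.ha])

include T in
theorem mem_iff (y : Q) : gv y ∈ EC Q g ↔ D.v y ∈ (U0 : Set (Fin 6 → F)) := by
  rw [T.st.mem_iff, inv_one, one_smul]

include T S in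
theorem v_two : D.v (cj x a) = S.l • (sv : Fin 6 → F) := by rw [S.act, T.ha]

include T S in
theorem two_mem : gv (cj x a) ∈ EC Q g :=
  (T.mem_iff _).2 (by rw [T.v_two S]; exact smul_sv_mem S.l_ne_zero S.l_ne_one)

include T in
theorem conj_xg : (x : G) * g * z * ((x : G) * g)⁻¹ = gv (cj x a) := by
  rw [gv_cj, ← T.hgs]; group

include T S in
theorem two_ne : gv (cj x a) ≠ gv a := fun e => by
  have h := congrArg D.v (gv_injective e)
  rw [T.v_two S, T.ha] at h
  exact S.l_ne_one (smul_left_injective F sv_ne (show S.l • (sv : Fin 6 → F) = (1 : F) • sv by rw [one_smul]; exact h))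

include T in
theorem one_mem' : gv a ∈ EC Q g := ⟨z, D.sing.mem, T.hgs⟩

include T S in
theorem two_sq : gv a * gv a = 1 ∧ gv (cj x a) * gv (cj x a) = 1 ∧
    gv (cj x a) * gv a = gv a * gv (cj x a) ∧ gv (cj x (cj x a)) = gv a * gv (cj x a) := by
  have h1 : gv a ∈ EE Q ⊓ EC Q g := ⟨gv_mem a, T.one_mem'⟩
  have h2 : gv (cj x a) ∈ EE Q ⊓ EC Q g := ⟨gv_mem _, T.two_mem S⟩
  have hel := T.st.loc.elem
  have hsq : ∀ y ∈ EE Q ⊓ EC Q g, y * y = 1 := fun y hy => by rw [← pow_two]; exact hel.2 y hy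
  have hc : gv (cj x a) * gv a = gv a * gv (cj x a) :=
    congrArg Subtype.val (hel.1.is_comm.comm ⟨_, h2⟩ ⟨_, h1⟩)
  refine ⟨hsq _ h1, hsq _ h2, hc, ?_⟩
  rw [eq_inv_of_mul_eq_one_right T.prod, inv_eq_of_mul_eq_one_right (hsq _ (mul_mem h1 h2))]

include T S in
theorem exists_u : ∃ au : Q, gv au = g⁻¹ * gv (cj x a) * g ∧
    g⁻¹ * ((x : G) * g) * z * (g⁻¹ * ((x : G) * g))⁻¹ = gv au ∧ gv au ≠ z := by
  obtain ⟨au, hau⟩ := exists_q (mem_EC.1 (T.two_mem S))
  refine ⟨au, hau, ?_, ?_⟩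
  · rw [hau, ← T.conj_xg]; group
  · intro e
    rw [hau] at e
    refine T.two_ne S ?_
    calc gv (cj x a) = g * (g⁻¹ * gv (cj x a) * g) * g⁻¹ := by group
      _ = gv a := by rw [e, T.hgs]

include T S in
theorem loc' : Loc Q (g⁻¹ * ((x : G) * g)) := by
  obtain ⟨au, -, hg', hne⟩ := T.exists_u S
  exact (D.local_structure _ au hg' hne).2.1

theorem mem_P0 {y : G} :
    y ∈ P0 Q x g ↔ g⁻¹ * y * g ∈ EE Q ⊓ EC Q (g⁻¹ * ((x : G) * g)) := by
  rw [P0, Subgroup.mem_inf, Subgroup.mem_inf, mem_EC, mem_EC, mem_EC (g := g⁻¹ * _),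
    show (g⁻¹ * ((x : G) * g))⁻¹ * (g⁻¹ * y * g) * (g⁻¹ * ((x : G) * g)) =
      ((x : G) * g)⁻¹ * y * ((x : G) * g) by group]

include T S in
theorem comm0 {y y' : G} (hy : y ∈ P0 Q x g) (hy' : y' ∈ P0 Q x g) : y * y' = y' * y := by
  have h := congrArg Subtype.val ((T.loc' S).elem.1.is_comm.comm ⟨_, mem_P0.1 hy⟩ ⟨_, mem_P0.1 hy'⟩)
  have h' : g⁻¹ * y * g * (g⁻¹ * y' * g) = g⁻¹ * y' * g * (g⁻¹ * y * g) := h
  calc y * y' = g * (g⁻¹ * y * g * (g⁻¹ * y' * g)) * g⁻¹ := by group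
    _ = g * (g⁻¹ * y' * g * (g⁻¹ * y * g)) * g⁻¹ := by rw [h']
    _ = y' * y := by group

include T S in
theorem sq0 {y : G} (hy : y ∈ P0 Q x g) : y * y = 1 := by
  have h := (T.loc' S).elem.2 _ (mem_P0.1 hy)
  rw [pow_two] at h
  calc y * y = g * (g⁻¹ * y * g * (g⁻¹ * y * g)) * g⁻¹ := by group
    _ = 1 := by rw [h]; group

include T S in
theorem card0 : Nat.card (P0 Q x g) = 2 ^ 7 := by
  rw [← (T.loc' S).card_inter]
  exact Nat.card_congr
    { toFun := fun y => ⟨g⁻¹ * y.1 * g, mem_P0.1 y.2⟩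
      invFun := fun y => ⟨g * y.1 * g⁻¹, mem_P0.2 (by
        rw [show g⁻¹ * (g * y.1 * g⁻¹) * g = y.1 by group]; exact y.2)⟩
      left_inv := fun y => Subtype.ext (by show g * (g⁻¹ * y.1 * g) * g⁻¹ = y.1; group)
      right_inv := fun y => Subtype.ext (by show g⁻¹ * (g * y.1 * g⁻¹) * g = y.1; group) }

include T in
theorem z_mem0 : z ∈ P0 Q x g := by
  refine ⟨T.st.zmem, mem_EC.2 ?_⟩
  rw [show ((x : G) * g)⁻¹ * z * ((x : G) * g) = g⁻¹ * ((x : G)⁻¹ * (z * (x : G))) * g by group,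
    ← Subgroup.mem_centralizer_singleton_iff.1 x.2, inv_mul_cancel_left]
  exact mem_EC.1 T.st.zmem

include T S in
theorem a_mem0 : gv a ∈ P0 Q x g := by
  obtain ⟨au, -, hg', hne⟩ := T.exists_u S
  obtain ⟨-, hz, -⟩ := D.inter_facts _ ⟨_, au.2, hg'.symm⟩ (hg' ▸ hne)
  refine mem_P0.2 ?_
  rw [← T.hgs, show g⁻¹ * (g * z * g⁻¹) * g = z by group]
  exact ⟨D.sing.mem, hz⟩

include T S in
/-- The element of order three normalises the common part. -/
theorem conj_mem0 {y : G} (hy : y ∈ P0 Q x g) : (x : G) * y * (x : G)⁻¹ ∈ P0 Q x g := by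
  obtain ⟨au, hu, hg', hne⟩ := T.exists_u S
  have hg2 : g⁻¹ * ((x : G) * (x : G) * g) * z * (g⁻¹ * ((x : G) * (x : G) * g))⁻¹ = gv au * z := by
    calc _ = g⁻¹ * ((x : G) * ((x : G) * g * z * ((x : G) * g)⁻¹) * (x : G)⁻¹) * g := by group
      _ = g⁻¹ * gv (cj x (cj x a)) * g := by rw [T.conj_xg]; rfl
      _ = g⁻¹ * (gv a * gv (cj x a)) * g := by rw [(T.two_sq S).2.2.2]
      _ = _ := by rw [D.sing.comm_x _ (gv_mem au), hu, ← T.hgs]; group
  have h3 := inter_third D hg' hne hg2 (mem_P0.1 hy)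
  rw [mem_EC] at h3
  have hc : (x : G) * (x : G) * (x : G) = 1 := congrArg Subtype.val S.cube
  have hx : (x : G) = ((x : G) * (x : G))⁻¹ := eq_inv_of_mul_eq_one_right hc
  refine ⟨mem_EC.2 ?_, mem_EC.2 ?_⟩
  · have e : g⁻¹ * ((x : G) * y * (x : G)⁻¹) * g =
        (g⁻¹ * ((x : G) * (x : G) * g))⁻¹ * (g⁻¹ * y * g) * (g⁻¹ * ((x : G) * (x : G) * g)) := by
      calc g⁻¹ * ((x : G) * y * (x : G)⁻¹) * g =
            g⁻¹ * (((x : G) * (x : G))⁻¹ * y * ((x : G) * (x : G))) * g := by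
              rw [← hx, inv_eq_of_mul_eq_one_right (show (x : G) * ((x : G) * (x : G)) = 1 by rw [← mul_assoc, hc])]
        _ = _ := by group
    rw [e]; exact h3
  · rw [show ((x : G) * g)⁻¹ * ((x : G) * y * (x : G)⁻¹) * ((x : G) * g) = g⁻¹ * y * g by group]
    exact mem_EC.1 hy.1

include T S in
theorem two_mem0 : gv (cj x a) ∈ P0 Q x g := T.conj_mem0 S (T.a_mem0 S)

include T S in
theorem lift0 (hs : Cfsg.IsExtraspecialCentralizerSetting z Q 6) {y : G} (hy : y ∈ P0 Q x g) :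
    ∃ m : D.M, ((m : Subgroup.centralizer ({z} : Set G)) : G) = y := by
  let yc : Subgroup.centralizer ({z} : Set G) :=
    ⟨y, Subgroup.mem_centralizer_singleton_iff.2 (T.comm0 S hy T.z_mem0)⟩
  by_contra hno
  have hc : yc ∉ D.M := fun h => hno ⟨⟨yc, h⟩, rfl⟩
  have hQ := S.inverts hs hc
  have h1 : cj yc (cj x a) = cj x a := gv_injective (by
    rw [gv_cj]
    exact mul_inv_eq_iff_eq_mul.2 (T.comm0 S hy (T.two_mem0 S)))
  have h2 : cj yc⁻¹ a = a := gv_injective (by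
    rw [gv_cj]
    exact mul_inv_eq_iff_eq_mul.2 (T.comm0 S (inv_mem hy) (T.a_mem0 S)))
  have h := D.Q_le_St a hQ
  have e : cj (x * (yc * x * yc⁻¹)) a = cj x (cj yc (cj x (cj yc⁻¹ a))) := by
    rw [cj_cj, cj_cj, cj_cj]
    congr 1
    simp only [mul_assoc]
  rw [e, h2, h1, S.act, S.act, T.ha, smul_smul] at h
  have hl : S.l * S.l = 1 :=
    smul_left_injective F sv_ne (show (S.l * S.l) • (sv : Fin 6 → F) = (1 : F) • sv by rw [one_smul]; exact h)
  refine S.l_ne_one ?_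
  have h3 := cube_eq_one S.l_ne_zero
  rw [hl, one_mul] at h3
  exact h3

open Classical in
theorem eq_of_class {q q' : Q} (e : D.v q = D.v q')
    (hd : decide (q = D.lift (D.v q)) = decide (q' = D.lift (D.v q'))) : q = q' := by
  obtain ⟨c1, hc1, ec1⟩ := (D.v_eq_iff (D.lift (D.v q)) q).1 (D.v_lift _)
  obtain ⟨c2, hc2, ec2⟩ := (D.v_eq_iff (D.lift (D.v q')) q').1 (D.v_lift _)
  by_cases h1 : q = D.lift (D.v q)
  · have h2 : q' = D.lift (D.v q') := of_decide_eq_true (hd ▸ decide_eq_true h1)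
    rw [h1, h2, e]
  · have h2 : ¬ q' = D.lift (D.v q') := of_decide_eq_false (hd ▸ decide_eq_false h1)
    have z1 : gv c1 = z := hc1.resolve_left fun h => h1 (by
      conv_lhs => rw [ec1, show c1 = 1 from gv_injective h, mul_one])
    have z2 : gv c2 = z := hc2.resolve_left fun h => h2 (by
      conv_lhs => rw [ec2, show c2 = 1 from gv_injective h, mul_one])
    rw [ec1, ec2, e, show c1 = c2 from gv_injective (z1.trans z2.symm)]

include T S in
theorem exists_lift (hs : Cfsg.IsExtraspecialCentralizerSetting z Q 6) {e : ℕ} (he : e ∈ e16) :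
    ∃ m : D.M, ((m : Subgroup.centralizer ({z} : Set G)) : G) ∈ P0 Q x g ∧ mat (D.ρ m) = matF om e := by
  classical
  obtain ⟨P, -, hPc, -, hPm⟩ := T.st.grp
  let R : Subgroup D.M := (P0 Q x g).comap ((Subgroup.centralizer ({z} : Set G)).subtype.comp D.M.subtype)
  have hR : Nat.card R = 2 ^ 7 := by
    rw [← T.card0 S]
    refine Nat.card_congr (Equiv.ofBijective (fun m => ⟨_, m.2⟩) ⟨?_, ?_⟩)
    · intro m m' h
      exact Subtype.ext (Subtype.ext (Subtype.ext (congrArg Subtype.val h :)))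
    · rintro ⟨y, hy⟩
      obtain ⟨m, rfl⟩ := T.lift0 S hs hy
      exact ⟨⟨m, hy⟩, rfl⟩
  have hle : R.map D.ρ ≤ P := by
    rintro _ ⟨m, hm, rfl⟩
    have hd : (m : Subgroup.centralizer ({z} : Set G)) ∈ DG Q g :=
      Subgroup.mem_subgroupOf.2 (Subgroup.mem_inf.2 ⟨(Subgroup.mem_inf.1 hm).1, m.1.2⟩)
    rw [← mv_one D m]
    exact (hPm _).2 (T.st.into m hd)
  have hker : Nat.card (D.ρ.comp R.subtype).ker ≤ 8 := by
    let W4 : Set (Fin 6 → F) := {0, sv, (om : F) • sv, sv + (om : F) • sv}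
    have hW : W4.ncard ≤ 4 := by
      refine le_trans (Set.ncard_insert_le _ _) (Nat.succ_le_succ ?_)
      refine le_trans (Set.ncard_insert_le _ _) (Nat.succ_le_succ ?_)
      refine le_trans (Set.ncard_insert_le _ _) (Nat.succ_le_succ ?_)
      rw [Set.ncard_singleton]
    have hQ : ∀ r : (D.ρ.comp R.subtype).ker,
        (((r : R) : D.M) : Subgroup.centralizer ({z} : Set G)) ∈ Q := fun r => (D.ρ_ker _).1 r.2
    have hcl : ∀ q : Q, gv q ∈ P0 Q x g → D.v q ∈ W4 := by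
      intro q hq
      have h1 := T.conj_mem0 S hq
      have h2 := T.conj_mem0 S h1
      have m0 := (T.mem_iff q).1 (Subgroup.mem_inf.1 hq).1
      have m1 := (T.mem_iff (cj x q)).1 (Subgroup.mem_inf.1 h1).1
      have m2 := (T.mem_iff (cj x (cj x q))).1 (Subgroup.mem_inf.1 h2).1
      rw [S.act] at m1
      rw [S.act, S.act, smul_smul] at m2
      have mo : (om : F) • D.v q ∈ (U0 : Set (Fin 6 → F)) := by
        rcases scalar_cases S.l_ne_zero S.l_ne_one with e | e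
        · rwa [e] at m1
        · rw [e, ← mul_assoc, cube_eq_one om_ne_zero, one_mul] at m2
          exact m2
      exact U0_line m0 mo
    let f : (D.ρ.comp R.subtype).ker → ↥W4 × Bool := fun r =>
      (⟨D.v ⟨_, hQ r⟩, hcl ⟨_, hQ r⟩ (r : R).2⟩, decide ((⟨_, hQ r⟩ : Q) = D.lift (D.v ⟨_, hQ r⟩)))
    have hf : Function.Injective f := by
      intro r r' h
      simp only [f, Prod.mk.injEq, Subtype.mk.injEq] at h
      have := congrArg Subtype.val (eq_of_class h.1 h.2)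
      exact Subtype.ext (Subtype.ext (Subtype.ext this))
    refine le_trans (Nat.card_le_card_of_injective f hf) ?_
    rw [Nat.card_prod, Nat.card_coe_set_eq, Nat.card_eq_fintype_card, Fintype.card_bool]
    omega
  have hmul := (D.ρ.comp R.subtype).ker.card_mul_index
  rw [Subgroup.index_ker, MonoidHom.range_comp, Subgroup.range_subtype, hR] at hmul
  have hPe : R.map D.ρ = P := by
    refine Subgroup.eq_of_le_of_card_ge hle ?_
    rw [hPc]
    by_contra hlt
    have := Nat.mul_le_mul hker (le_of_lt (not_le.1 hlt))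
    have h15 : Nat.card (D.ρ.comp R.subtype).ker * Nat.card (R.map D.ρ) ≤ 8 * 15 :=
      Nat.mul_le_mul hker (by omega)
    omega
  obtain ⟨m, hm, hme⟩ := T.st.onto e he
  obtain ⟨m', hm', hme'⟩ : D.ρ m ∈ R.map D.ρ := hPe.symm ▸ (hPm _).2 ⟨e, he, by rw [← mv_one D m]; exact hme⟩
  exact ⟨m', hm', by rw [hme', ← mv_one D m]; exact hme⟩

include T S in
/-- The lifts commuting with the element of order three lie in the common part. -/
theorem sigma_mem (hs : Cfsg.IsExtraspecialCentralizerSetting z Q 6) {e : ℕ} (he : e ∈ e16) {s : D.M}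
    (hsx : (s : Subgroup.centralizer ({z} : Set G)) * x = x * s) (hse : mat (D.ρ s) = matF om e) :
    ((s : Subgroup.centralizer ({z} : Set G)) : G) ∈ P0 Q x g := by
  obtain ⟨m, hm, hme⟩ := T.exists_lift S hs he
  let xm : D.M := ⟨x, S.mem⟩
  set m1 := xm * m * xm⁻¹ with hm1
  set m2 := xm * m1 * xm⁻¹ with hm2
  have hm1' : ((m1 : Subgroup.centralizer ({z} : Set G)) : G) ∈ P0 Q x g := T.conj_mem0 S hm
  have hm2' : ((m2 : Subgroup.centralizer ({z} : Set G)) : G) ∈ P0 Q x g := T.conj_mem0 S hm1'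
  have inj : ∀ u w : D.M, ((u : Subgroup.centralizer ({z} : Set G)) : G) =
      ((w : Subgroup.centralizer ({z} : Set G)) : G) → u = w := fun u w h => Subtype.ext (Subtype.ext h)
  have hc1 : m * m1 = m1 * m := inj _ _ (T.comm0 S hm hm1')
  have hc2 : m * m2 = m2 * m := inj _ _ (T.comm0 S hm hm2')
  have hx3 : xm * m2 * xm⁻¹ = m := by
    have hc : xm * xm * xm = 1 := Subtype.ext S.cube
    calc xm * m2 * xm⁻¹ = xm * xm * xm * m * (xm * xm * xm)⁻¹ := by rw [hm2, hm1]; group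
      _ = m := by rw [hc, one_mul, inv_one, mul_one]
  set w := m * m1 * m2 with hw
  have hwx : xm * w * xm⁻¹ = w := by
    calc xm * w * xm⁻¹ = (xm * m * xm⁻¹) * (xm * m1 * xm⁻¹) * (xm * m2 * xm⁻¹) := by rw [hw]; group
      _ = m1 * m2 * m := by rw [← hm1, ← hm2, hx3]
      _ = _ := by rw [hw, mul_assoc, ← hc2, ← mul_assoc, ← hc1]
  have hρx : ∀ u : D.M, D.ρ xm * D.ρ u * (D.ρ xm)⁻¹ = D.ρ u := fun u => by
    have h : D.ρ (xm⁻¹ * (u * xm * u⁻¹)) = 1 := (D.ρ_ker _).2 (S.conj_mem u)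
    rw [map_mul, map_inv, inv_mul_eq_one, map_mul, map_mul, map_inv, eq_mul_inv_iff_mul_eq] at h
    rw [h, mul_inv_cancel_right]
  have hρw : D.ρ w = D.ρ m := by
    have h1 : D.ρ m1 = D.ρ m := by rw [hm1, map_mul, map_mul, map_inv, hρx]
    have h2 : D.ρ m2 = D.ρ m := by rw [hm2, map_mul, map_mul, map_inv, h1, hρx]
    have h3 : m * m = 1 := inj _ _ (T.sq0 S hm)
    rw [hw, map_mul, map_mul, h1, h2, ← map_mul, ← map_mul, h3, one_mul]
  have hq : ((w⁻¹ * s : D.M) : Subgroup.centralizer ({z} : Set G)) ∈ Q := by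
    refine (D.ρ_ker _).1 ?_
    rw [map_mul, map_inv, hρw, inv_mul_eq_one]
    exact ext_mat (hme.trans hse.symm)
  have hfix : cj x (⟨_, hq⟩ : Q) = ⟨_, hq⟩ := by
    refine Subtype.ext ?_
    have hw' : Commute x (w : Subgroup.centralizer ({z} : Set G)) :=
      (congrArg Subtype.val (mul_inv_eq_iff_eq_mul.1 hwx) :)
    have hs' : Commute x (s : Subgroup.centralizer ({z} : Set G)) := hsx.symm
    exact mul_inv_eq_iff_eq_mul.2 ((hw'.inv_right.mul_right hs'))
  have hwmem : ((w : Subgroup.centralizer ({z} : Set G)) : G) ∈ P0 Q x g := mul_mem (mul_mem hm hm1') hm2'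
  rw [show s = w * (w⁻¹ * s) by group]
  refine mul_mem hwmem ?_
  rcases S.fixed_Q hfix with h | h
  · rw [show (((w⁻¹ * s : D.M) : Subgroup.centralizer ({z} : Set G)) : G) = 1 from h]; exact one_mem _
  · rw [show (((w⁻¹ * s : D.M) : Subgroup.centralizer ({z} : Set G)) : G) = z from h]; exact T.z_mem0

end Tri

end Cfsg.Agent.H84.SixCover
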